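import Cfsg.Prelude.Def_RootSubgroups
import Cfsg.Agent.Lib.Core.Basic
import Cfsg.Agent.S0200

/-!
Root involutions: basic facts; the line lemma `core`; the isolated vertices.
-/

set_option autoImplicit false

namespace Cfsg.Agent.Lib.RootInv

open Cfsg

variable {G : Type*} [Group G] {D : Set G}

theorem sq_one (hD : IsRootInvolutionSet D) {a : G} (ha : a ∈ D) : a * a = 1 := by
  have h := pow_orderOf_eq_one a
  rw [hD.orderOf_eq a ha, pow_two] at h
  exact h

theorem inv_eq (hD : IsRootInvolutionSet D) {a : G} (ha : a ∈ D) : a⁻¹ = a :=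
  inv_eq_of_mul_eq_one_left (sq_one hD ha)

theorem ne_one (hD : IsRootInvolutionSet D) {a : G} (ha : a ∈ D) : a ≠ 1 := by
  rintro rfl
  have := hD.orderOf_eq 1 ha
  simp at this

theorem inv_mul (hD : IsRootInvolutionSet D) {a b : G} (ha : a ∈ D) (hb : b ∈ D) : (a * b)⁻¹ = b * a := by
  rw [mul_inv_rev, inv_eq hD ha, inv_eq hD hb]

theorem order_mul_comm (hD : IsRootInvolutionSet D) {a b : G} (ha : a ∈ D) (hb : b ∈ D) :
    orderOf (b * a) = orderOf (a * b) := by
  rw [← inv_mul hD ha hb, orderOf_inv]

/-- If the product is not of odd order then it has fourth power one. -/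
theorem pow4 (hD : IsRootInvolutionSet D) {a b : G} (ha : a ∈ D) (hb : b ∈ D) (h : ¬ Odd (orderOf (a * b))) :
    (a * b) ^ 4 = 1 := by
  rcases hD.pair a ha b hb with h1 | h1 | h1
  · have h2 : (a * b) * (a * b) = 1 := by
      calc (a * b) * (a * b) = a * (b * a) * b := by group
        _ = a * (a * b) * b := by rw [h1]
        _ = (a * a) * (b * b) := by group
        _ = 1 := by rw [sq_one hD ha, sq_one hD hb, one_mul]
    calc (a * b) ^ 4 = ((a * b) * (a * b)) * ((a * b) * (a * b)) := by
          simp only [pow_succ, pow_zero, one_mul]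
          group
      _ = 1 := by rw [h2, one_mul]
  · exact absurd h1 h
  · rw [← h1.1]
    exact pow_orderOf_eq_one _

/-- Commuting of `v` and `u v u` from the fourth power. -/
theorem comm_of_pow4 (hD : IsRootInvolutionSet D) {u v : G} (hu : u ∈ D) (hv : v ∈ D) (h : (u * v) ^ 4 = 1) :
    v * (u * v * u) = (u * v * u) * v := by
  have h1 : (u * v) * (u * v) * ((u * v) * (u * v)) = 1 := by
    rw [← h]
    simp only [pow_succ, pow_zero, one_mul]
    group
  have h2 : (u * v) * (u * v) = (v * u) * (v * u) := by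
    have h3 : ((u * v) * (u * v))⁻¹ = (v * u) * (v * u) := by
      rw [mul_inv_rev, inv_mul hD hu hv]
    rw [← h3]
    exact eq_inv_of_mul_eq_one_left h1
  have h4 : u * (u * v * u) = v * u := by
    calc u * (u * v * u) = (u * u) * v * u := by group
      _ = v * u := by rw [sq_one hD hu, one_mul]
  have h5 : v * (u * v * u) = (v * u) * (v * u) := by group
  have h6 : (u * v * u) * v = (u * v) * (u * v) := by group
  rw [h5, h6, h2]

theorem not_comm_of_odd (hD : IsRootInvolutionSet D) {a x : G} (ha : a ∈ D) (hx : x ∈ D)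
    (hodd : Odd (orderOf (a * x))) (hax : a ≠ x) : a * x ≠ x * a := by
  intro e
  have h2 : (a * x) ^ 2 = 1 := by
    calc (a * x) ^ 2 = a * (x * a) * x := by rw [pow_two]; group
      _ = a * (a * x) * x := by rw [e]
      _ = (a * a) * (x * x) := by group
      _ = 1 := by rw [sq_one hD ha, sq_one hD hx, one_mul]
  have h3 : orderOf (a * x) ∣ 2 := orderOf_dvd_of_pow_eq_one h2
  have h4 : orderOf (a * x) = 1 := by
    rcases (Nat.dvd_prime Nat.prime_two).1 h3 with h5 | h5
    · exact h5
    · rw [h5] at hodd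
      exact absurd hodd (by decide)
  rw [orderOf_eq_one_iff] at h4
  apply hax
  have := eq_inv_of_mul_eq_one_left h4
  rwa [inv_eq hD hx] at this

/-- An element of odd order lies in the cyclic group generated by its square. -/
theorem commute_of_commute_sq {y r : G} (hodd : Odd (orderOf r)) (h : y * (r * r) = (r * r) * y) : y * r = r * y := by
  obtain ⟨k, hk⟩ := hodd
  have h1 : (r * r) ^ (k + 1) = r := by
    have h2 : (r * r) ^ (k + 1) = r ^ (orderOf r) * r := by
      rw [hk, ← pow_two, ← pow_mul, ← pow_succ]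
      congr 1
    rw [h2, pow_orderOf_eq_one, one_mul]
  have h3 : Commute y (r * r) := h
  have h4 := h3.pow_right (k + 1)
  rw [h1] at h4
  exact h4

/-- The line lemma. -/
theorem core (hD : IsRootInvolutionSet D) {a e x : G} (ha : a ∈ D) (he : e ∈ D) (hx : x ∈ D)
    (hae : a * e = e * a) (hz : a * e ∈ D) (hodd : Odd (orderOf (a * x))) (hax : a ≠ x)
    (h4 : (e * x) ^ 4 = 1) : a * e ≠ x ∧ Odd (orderOf ((a * e) * x)) := by
  have hnc := not_comm_of_odd hD ha hx hodd hax
  refine ⟨?_, ?_⟩
  · rintro rfl
    apply hnc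
    calc a * (a * e) = a * (e * a) := by rw [hae]
      _ = (a * e) * a := by group
  · by_contra hcon
    have hy := comm_of_pow4 hD he hx h4
    have hz4 := pow4 hD hz hx hcon
    have hzy := comm_of_pow4 hD hz hx hz4
    set y := e * x * e with hydef
    have h1 : (a * e) * x * (a * e) = a * y * a := by
      rw [hydef]
      calc (a * e) * x * (a * e) = (a * e) * x * (e * a) := congrArg (fun t => (a * e) * x * t) hae
        _ = _ := by group
    rw [h1] at hzy
    -- conjugating by `a`
    have h2 : y * (a * x * a) = (a * x * a) * y := by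
      have h3 : a * (x * (a * y * a)) * a = a * ((a * y * a) * x) * a := by rw [hzy]
      have h5 : a * (x * (a * y * a)) * a = (a * x * a) * y * (a * a) := by group
      have h6 : a * ((a * y * a) * x) * a = (a * a) * (y * (a * x * a)) := by group
      rw [h5, h6, sq_one hD ha, mul_one, one_mul] at h3
      exact h3.symm
    have h7 : y * ((x * a) * (x * a)) = ((x * a) * (x * a)) * y := by
      have e1 : (x * a) * (x * a) = x * (a * x * a) := by group
      rw [e1, ← mul_assoc, ← hy, mul_assoc, h2, mul_assoc]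
      group
    have hoddxa : Odd (orderOf (x * a)) := by
      rw [order_mul_comm hD ha hx]
      exact hodd
    have h8 := commute_of_commute_sq hoddxa h7
    have h9 : y * a = a * y := by
      have h10 : x * (y * a) = x * (a * y) := by
        calc x * (y * a) = (x * y) * a := by group
          _ = (y * x) * a := by rw [hy]
          _ = y * (x * a) := by group
          _ = (x * a) * y := h8
          _ = _ := by group
      exact mul_left_cancel h10
    apply hnc
    -- conjugating back by `e`
    have h11 : e * (y * a) * e = e * (a * y) * e := by rw [h9]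
    have h12 : e * y * e = x := by
      rw [hydef]
      calc e * (e * x * e) * e = (e * e) * x * (e * e) := by group
        _ = x := by rw [sq_one hD he, one_mul, mul_one]
    have h13 : e * (y * a) * e = x * a := by
      calc e * (y * a) * e = (e * y * e) * (e * a * e) := by
            calc e * (y * a) * e = e * y * (e * e) * a * e := by
                  rw [sq_one hD he]; group
              _ = _ := by group
        _ = x * (e * a * e) := by rw [h12]
        _ = x * a := by
          rw [← hae]
          calc x * (a * e * e) = x * (a * (e * e)) := by group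
            _ = x * a := by rw [sq_one hD he, mul_one]
    have h14 : e * (a * y) * e = a * x := by
      calc e * (a * y) * e = (e * a * e) * (e * y * e) := by
            calc e * (a * y) * e = e * a * (e * e) * y * e := by
                  rw [sq_one hD he]; group
              _ = _ := by group
        _ = (e * a * e) * x := by rw [h12]
        _ = a * x := by
          rw [← hae]
          calc (a * e * e) * x = (a * (e * e)) * x := by group
            _ = a * x := by rw [sq_one hD he, mul_one]
    rw [h13, h14] at h11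
    exact h11.symm

theorem adj_symm (hD : IsRootInvolutionSet D) {a b : G} (h : OddAdj D a b) : OddAdj D b a := by
  obtain ⟨h1, h2, h3, h4⟩ := h
  refine ⟨h2, h1, h3.symm, ?_⟩
  rw [order_mul_comm hD h1 h2]
  exact h4

theorem reach_symm (hD : IsRootInvolutionSet D) {a b : G} (h : Relation.ReflTransGen (OddAdj D) a b) :
    Relation.ReflTransGen (OddAdj D) b a := by
  induction h with
  | refl => exact .refl
  | tail _ h ih => exact (Relation.ReflTransGen.single (adj_symm hD h)).trans ih

/-- The set of isolated vertices. -/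
abbrev isolatedSet (D : Set G) : Set G := {w | IsIsolatedElem (OddAdj D) D w}

theorem exists_adj_of_not_isolated (hD : IsRootInvolutionSet D) {e : G} (he : e ∈ D) (h : e ∉ isolatedSet D) :
    ∃ f, OddAdj D e f := by
  by_contra hcon
  push Not at hcon
  exact h ⟨he, fun b => ⟨hcon b, fun hb => hcon b (adj_symm hD hb)⟩⟩

theorem isolated_conj (hD : IsRootInvolutionSet D) {w : G} (hw : w ∈ isolatedSet D) (g : G) :
    g * w * g⁻¹ ∈ isolatedSet D := by
  have key : ∀ b, ¬ OddAdj D (g * w * g⁻¹) b := by
    intro b hb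
    obtain ⟨h1, h2, h3, h4⟩ := hb
    refine (hw.2 (g⁻¹ * b * g)).1 ⟨hw.1, ?_, ?_, ?_⟩
    · simpa using hD.conj_mem b h2 g⁻¹
    · intro e
      apply h3
      rw [e]
      group
    · have e : w * (g⁻¹ * b * g) = g⁻¹ * ((g * w * g⁻¹) * b) * g := by group
      rw [e]
      have e2 : orderOf (g⁻¹ * ((g * w * g⁻¹) * b) * g) = orderOf ((g * w * g⁻¹) * b) := by
        have := orderOf_injective (MulAut.conj g⁻¹).toMonoidHom (MulAut.conj g⁻¹).injective ((g * w * g⁻¹) * b)
        simpa using this
      rw [e2]
      exact h4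
  exact ⟨hD.conj_mem w hw.1 g, fun b => ⟨key b, fun h => key b (adj_symm hD h)⟩⟩

theorem closure_isolated_normal (hD : IsRootInvolutionSet D) : (Subgroup.closure (isolatedSet D)).Normal := by
  refine ⟨fun n hn g => ?_⟩
  have hle : Subgroup.closure (isolatedSet D) ≤
      (Subgroup.closure (isolatedSet D)).comap (MulAut.conj g).toMonoidHom := by
    rw [Subgroup.closure_le]
    intro w hw
    exact Subgroup.subset_closure (isolated_conj hD hw g)
  exact hle hn

theorem isolated_mem_pCore [Finite G] (hD : IsRootInvolutionSet D) {w : G} (hw : w ∈ isolatedSet D) :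
    w ∈ pCore 2 G := by
  haveI : Fact (Nat.Prime 2) := ⟨Nat.prime_two⟩
  by_contra hcon
  have hO : ∀ N : Subgroup G, N.Normal → IsPGroup 2 N → w ∉ N := fun N hN hP hwN =>
    hcon (Cfsg.Agent.Lib.Core.le_pCore hN hP hwN)
  obtain ⟨h, hh1, hodd, hinv⟩ := Cfsg.Agent.S0200.result w (hD.orderOf_eq w hw.1) hO
  have hb : h * w * h⁻¹ ∈ D := hD.conj_mem w hw.1 h
  have hwi := inv_eq hD hw.1
  have e : w * (h * w * h⁻¹) = h⁻¹ * h⁻¹ := by
    calc w * (h * w * h⁻¹) = (w * h * w) * h⁻¹ := by group
      _ = (w * h * w⁻¹) * h⁻¹ := by rw [hwi]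
      _ = h⁻¹ * h⁻¹ := by rw [hinv]
  have hne : h⁻¹ * h⁻¹ ≠ 1 := by
    intro e1
    have h2 : (h⁻¹) ^ 2 = 1 := by rw [pow_two]; exact e1
    have h3 : orderOf h⁻¹ ∣ 2 := orderOf_dvd_of_pow_eq_one h2
    rw [orderOf_inv] at h3
    have h4 : orderOf h = 1 := by
      rcases (Nat.dvd_prime Nat.prime_two).1 h3 with h5 | h5
      · exact h5
      · rw [h5] at hodd
        exact absurd hodd (by decide)
    exact hh1 (orderOf_eq_one_iff.1 h4)
  refine (hw.2 _).1 ⟨hw.1, hb, ?_, ?_⟩
  · intro e1
    apply hne
    rw [← e, ← e1]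
    exact sq_one hD hw.1
  · rw [e]
    have h2 : orderOf (h⁻¹ * h⁻¹) ∣ orderOf h := by
      apply orderOf_dvd_of_pow_eq_one
      rw [← pow_two, ← pow_mul, mul_comm, pow_mul, inv_pow, pow_orderOf_eq_one]
      simp
    exact Odd.of_dvd_nat hodd h2

theorem closure_isolated_isPGroup [Finite G] (hD : IsRootInvolutionSet D) :
    IsPGroup 2 ↥(Subgroup.closure (isolatedSet D)) := by
  have hle : Subgroup.closure (isolatedSet D) ≤ pCore 2 G := by
    rw [Subgroup.closure_le]
    intro w hw
    exact isolated_mem_pCore hD hw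
  exact (Cfsg.Agent.Lib.Core.pCore_isPGroup 2 G).to_le hle

/-- A member of `D` in a normal `2`-subgroup has no odd partner. -/
theorem not_adj_of_mem_normal (hD : IsRootInvolutionSet D) {N : Subgroup G} (hN : N.Normal) (hP : IsPGroup 2 N)
    {d b : G} (hd : d ∈ N) (h : OddAdj D d b) : False := by
  obtain ⟨h1, h2, h3, h4⟩ := h
  have hmem : (d * b) * (d * b) ∈ N := by
    have h5 : (d * b) * (d * b) = d * (b * d * b⁻¹) := by
      rw [inv_eq hD h2]
      group
    rw [h5]
    exact N.mul_mem hd (hN.conj_mem d hd b)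
  obtain ⟨k, hk⟩ := hP ⟨_, hmem⟩
  have hk' : ((d * b) * (d * b)) ^ 2 ^ k = 1 := congrArg Subtype.val hk
  have h6 : orderOf ((d * b) * (d * b)) ∣ 2 ^ k := orderOf_dvd_of_pow_eq_one hk'
  have h7 : orderOf ((d * b) * (d * b)) ∣ orderOf (d * b) := by
    apply orderOf_dvd_of_pow_eq_one
    rw [← pow_two, ← pow_mul, mul_comm, pow_mul, pow_orderOf_eq_one, one_pow]
  have hodd2 : Odd (orderOf ((d * b) * (d * b))) := Odd.of_dvd_nat h4 h7
  have h8 : orderOf ((d * b) * (d * b)) = 1 := by
    have hcop : Nat.Coprime (orderOf ((d * b) * (d * b))) (2 ^ k) :=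
      Nat.Coprime.pow_right _ (Nat.coprime_two_right.2 hodd2)
    exact Nat.Coprime.eq_one_of_dvd hcop h6
  rw [orderOf_eq_one_iff] at h8
  have h9 : (d * b) ^ 2 = 1 := by rw [pow_two]; exact h8
  have h10 : orderOf (d * b) ∣ 2 := orderOf_dvd_of_pow_eq_one h9
  have h11 : orderOf (d * b) = 1 := by
    rcases (Nat.dvd_prime Nat.prime_two).1 h10 with h5 | h5
    · exact h5
    · rw [h5] at h4
      exact absurd h4 (by decide)
  rw [orderOf_eq_one_iff] at h11
  apply h3
  have := eq_inv_of_mul_eq_one_left h11
  rwa [inv_eq hD h2] at this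

theorem closure_isolated_inter [Finite G] (hD : IsRootInvolutionSet D) :
    (Subgroup.closure (isolatedSet D) : Set G) ∩ D = isolatedSet D := by
  apply Set.Subset.antisymm
  · rintro d ⟨h1, h2⟩
    refine ⟨h2, fun b => ⟨fun h => ?_, fun h => ?_⟩⟩
    · exact not_adj_of_mem_normal hD (closure_isolated_normal hD) (closure_isolated_isPGroup hD) h1 h
    · exact not_adj_of_mem_normal hD (closure_isolated_normal hD) (closure_isolated_isPGroup hD) h1 (adj_symm hD h)
  · intro w hw
    exact ⟨Subgroup.subset_closure hw, hw.1⟩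

/-- Partners on a line lie in the component or are isolated. -/
theorem productPartner_mem (hD : IsRootInvolutionSet D) {a : G} (ha : a ∈ D)
    (h2 : ∃ a' ∈ elemComponentOf (OddAdj D) D a, a' ≠ a) {e : G} (he : e ∈ productPartners D a) :
    e ∈ elemComponentOf (OddAdj D) D a ∪ isolatedSet D := by
  obtain ⟨⟨heD, hcomm, hne⟩, hprod⟩ := he
  by_cases hW : e ∈ isolatedSet D
  · exact Or.inr hW
  left
  refine ⟨heD, ?_⟩
  by_contra hnr
  obtain ⟨f, hf⟩ := exists_adj_of_not_isolated hD heD hW
  obtain ⟨x, hx⟩ : ∃ x, OddAdj D a x := by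
    obtain ⟨a', ⟨-, hr⟩, hne'⟩ := h2
    rcases Relation.ReflTransGen.cases_head hr with h1 | ⟨y, hy, -⟩
    · exact absurd h1.symm hne'
    · exact ⟨y, hy⟩
  have hae : a * e = e * a := hcomm.symm
  have hz : a * e ∈ D := by rw [hae]; exact hprod
  -- `e` and `x`
  have hex : (e * x) ^ 4 = 1 := by
    apply pow4 hD heD hx.2.1
    intro hodd
    by_cases hne2 : e = x
    · exact hnr (Relation.ReflTransGen.single (by rw [hne2]; exact hx))
    · exact hnr ((Relation.ReflTransGen.single hx).trans
        (Relation.ReflTransGen.single (adj_symm hD ⟨heD, hx.2.1, hne2, hodd⟩)))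
  -- `a` and `f`
  have haf : (a * f) ^ 4 = 1 := by
    apply pow4 hD ha hf.2.1
    intro hodd
    by_cases hne2 : a = f
    · exact hnr (reach_symm hD (Relation.ReflTransGen.single (by rw [hne2]; exact hf)))
    · exact hnr ((Relation.ReflTransGen.single ⟨ha, hf.2.1, hne2, hodd⟩).trans
        (Relation.ReflTransGen.single (adj_symm hD hf)))
  obtain ⟨h1, h3⟩ := core hD ha heD hx.2.1 hae hz hx.2.2.2 hx.2.2.1 hex
  obtain ⟨h4, h5⟩ := core hD heD ha hf.2.1 hae.symm (by rw [← hae]; exact hz) hf.2.2.2 hf.2.2.1 haf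
  rw [← hae] at h4 h5
  have p1 : OddAdj D x (a * e) := adj_symm hD ⟨hz, hx.2.1, h1, h3⟩
  have p2 : OddAdj D (a * e) f := ⟨hz, hf.2.1, h4, h5⟩
  exact hnr ((Relation.ReflTransGen.single hx).trans ((Relation.ReflTransGen.single p1).trans
    ((Relation.ReflTransGen.single p2).trans (Relation.ReflTransGen.single (adj_symm hD hf)))))

end Cfsg.Agent.Lib.RootInv
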