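import Cfsg.Prelude.Def_QuasithinSetup
import Cfsg.Agent.Lib.RootInv.Basic
import Cfsg.Agent.Lib.Amalgam.Chain

/-!
Root involutions with connected graph `𝓕(D)` and a line: simplicity modulo `O_{2,Z}(G)`.
-/

set_option autoImplicit false

namespace Cfsg.Agent.Lib.RootInv

open Cfsg
open scoped commutatorElement

variable {G : Type*} [Group G] {D : Set G}

/-- Involutions with odd product are conjugate. -/
theorem conj_of_odd (hD : IsRootInvolutionSet D) {a x : G} (ha : a ∈ D) (hx : x ∈ D)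
    (hodd : Odd (orderOf (a * x))) : ∃ g : G, g * a * g⁻¹ = x := by
  obtain ⟨k, hk⟩ := hodd
  set w := a * x with hw
  have haa := sq_one hD ha
  have hxx := sq_one hD hx
  have hinv : w⁻¹ = x * a := inv_mul hD ha hx
  have h1 : a * w⁻¹ * a⁻¹ = w := by
    rw [hinv, inv_eq hD ha]
    calc a * (x * a) * a = a * x * (a * a) := by group
      _ = w := by rw [haa, mul_one]
  have h2 : a * (w⁻¹) ^ k * a⁻¹ = w ^ k := by
    rw [← conj_pow, h1]
  have h3 : a * (w ^ k)⁻¹ = w ^ k * a := by
    rw [← inv_pow]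
    calc a * (w⁻¹) ^ k = (a * (w⁻¹) ^ k * a⁻¹) * a := by group
      _ = w ^ k * a := by rw [h2]
  have h4 : w ^ k * w ^ k = w⁻¹ := by
    have h5 : w ^ (2 * k + 1) = 1 := by rw [← hk]; exact pow_orderOf_eq_one w
    have h6 : w ^ k * w ^ k * w = 1 := by
      rw [← h5, pow_succ, two_mul, pow_add]
    exact eq_inv_of_mul_eq_one_left h6
  refine ⟨w ^ k, ?_⟩
  calc w ^ k * a * (w ^ k)⁻¹ = w ^ k * (a * (w ^ k)⁻¹) := by group
    _ = w ^ k * (w ^ k * a) := by rw [h3]
    _ = (w ^ k * w ^ k) * a := by group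
    _ = x := by
      rw [h4, hinv, mul_assoc]
      rw [sq_one hD ha, mul_one]

theorem conj_of_connected (hD : IsRootInvolutionSet D) (hc : IsConnectedSet (OddAdj D) D) {a b : G}
    (ha : a ∈ D) (hb : b ∈ D) : ∃ g : G, g * a * g⁻¹ = b := by
  have h := hc a ha b hb
  induction h with
  | refl => exact ⟨1, by simp⟩
  | tail _ h ih =>
    obtain ⟨g, hg⟩ := ih h.1
    obtain ⟨g2, hg2⟩ := conj_of_odd hD h.1 h.2.1 h.2.2.2
    refine ⟨g2 * g, ?_⟩
    rw [← hg2, ← hg]
    group

theorem eq_top_of_mem (hD : IsRootInvolutionSet D) (hc : IsConnectedSet (OddAdj D) D) {N : Subgroup G}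
    (hN : N.Normal) {a : G} (ha : a ∈ D) (haN : a ∈ N) : N = ⊤ := by
  rw [eq_top_iff, ← hD.generates, Subgroup.closure_le]
  intro b hb
  obtain ⟨g, rfl⟩ := conj_of_connected hD hc ha hb
  exact hN.conj_mem a haN g

/-- Every member lies on a line. -/
theorem exists_line (hD : IsRootInvolutionSet D) (hc : IsConnectedSet (OddAdj D) D)
    (hDD : (D ∩ commutingProducts D).Nonempty) {a : G} (ha : a ∈ D) :
    ∃ b ∈ D, b ≠ a ∧ a * b = b * a ∧ a * b ∈ D := by
  obtain ⟨c, hcD, a₀, ha₀, b₀, hb₀, hcomm, hne, rfl⟩ := hDD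
  obtain ⟨g, rfl⟩ := conj_of_connected hD hc ha₀ ha
  refine ⟨g * b₀ * g⁻¹, hD.conj_mem _ hb₀ g, ?_, ?_, ?_⟩
  · intro e
    have e2 : b₀ = a₀ := by
      have := congrArg (fun t => g⁻¹ * t * g) e
      simpa [mul_assoc] using this
    apply hne
    rw [e2]
    exact sq_one hD ha₀
  · have := congrArg (fun t => g * t * g⁻¹) hcomm
    simpa [mul_assoc] using this
  · have e : g * a₀ * g⁻¹ * (g * b₀ * g⁻¹) = g * (a₀ * b₀) * g⁻¹ := by group
    rw [e]
    exact hD.conj_mem _ hcD g

/-- Every member has an odd partner. -/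
theorem exists_adj (hD : IsRootInvolutionSet D) (hc : IsConnectedSet (OddAdj D) D)
    (hDD : (D ∩ commutingProducts D).Nonempty) {a : G} (ha : a ∈ D) : ∃ x, OddAdj D a x := by
  obtain ⟨b, hb, hne, -⟩ := exists_line hD hc hDD ha
  rcases Relation.ReflTransGen.cases_head (hc a ha b hb) with h1 | ⟨y, hy, -⟩
  · exact absurd h1.symm hne
  · exact ⟨y, hy⟩

/-- An involution commuting with an element of odd order: the product has even order. -/
theorem not_odd_mul_of_commute (hD : IsRootInvolutionSet D) {b : G} (hb : b ∈ D) {y : G}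
    (hy : Odd (orderOf y)) (hc : b * y = y * b) : ¬ Odd (orderOf (b * y)) := by
  rintro ⟨m, hm⟩
  have hcomm : Commute b y := hc
  have h1 : (b * y) ^ (2 * m + 1) = 1 := by rw [← hm]; exact pow_orderOf_eq_one _
  rw [hcomm.mul_pow] at h1
  have hbb : b ^ (2 * m + 1) = b := by
    rw [pow_succ, pow_mul, pow_two, sq_one hD hb, one_pow, one_mul]
  rw [hbb] at h1
  have h2 : b = (y ^ (2 * m + 1))⁻¹ := eq_inv_of_mul_eq_one_left h1
  have h3 : orderOf b = 2 := hD.orderOf_eq b hb
  have h4 : orderOf b ∣ orderOf y := by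
    apply orderOf_dvd_of_pow_eq_one
    rw [h2, inv_pow, ← pow_mul, mul_comm, pow_mul, pow_orderOf_eq_one, one_pow, inv_one]
  rw [h3] at h4
  exact (Nat.not_even_iff_odd.2 hy) (even_iff_two_dvd.2 h4)

/-- Elements of `D` conjugated by a normal subgroup missing `D` commute. -/
theorem commute_conj_of_normal_disjoint (hD : IsRootInvolutionSet D) (hc : IsConnectedSet (OddAdj D) D)
    (hDD : (D ∩ commutingProducts D).Nonempty) {N : Subgroup G} (hN : N.Normal)
    (hND : ∀ d ∈ D, d ∉ N) {a : G} (ha : a ∈ D) {n : G} (hn : n ∈ N) :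
    a * (n * a * n⁻¹) = (n * a * n⁻¹) * a := by
  set e := n * a * n⁻¹ with he
  have heD : e ∈ D := hD.conj_mem a ha n
  have hy : a * e ∈ N := by
    have h1 : a * e = (a * n * a⁻¹) * n⁻¹ := by
      rw [he, inv_eq hD ha]
      group
    rw [h1]
    exact N.mul_mem (hN.conj_mem n hn a) (N.inv_mem hn)
  rcases hD.pair a ha e heD with h1 | h1 | h1
  · exact h1
  swap
  · exfalso
    apply hND _ h1.2
    rw [pow_two]
    exact N.mul_mem hy hy
  by_cases hae : a = e
  · rw [← hae]
  exfalso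
  obtain ⟨b, hb, hba, hab, habD⟩ := exists_line hD hc hDD ha
  have hzD : b * a ∈ D := by rw [← hab]; exact habD
  have hzz : (b * a) * (b * a) = 1 := sq_one hD hzD
  have hbe_eq : b * e = (b * a) * (a * e) := by
    calc b * e = b * (a * a) * e := by rw [sq_one hD ha, mul_one]
      _ = _ := by group
  -- `b` and `e` commute
  have hbe : b * e = e * b := by
    have hsq : (b * e) * (b * e) ∈ N := by
      have h2 : (b * e) * (b * e) = ((b * a) * (a * e) * (b * a)⁻¹) * (a * e) := by
        rw [hbe_eq, inv_eq hD hzD]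
        group
      rw [h2]
      exact N.mul_mem (hN.conj_mem _ hy _) hy
    rcases hD.pair b hb e heD with h2 | h2 | h2
    · exact h2
    · exfalso
      have h3 : b * e ∈ N := by
        obtain ⟨k, hk⟩ := h2
        have h4 : ((b * e) * (b * e)) ^ (k + 1) = b * e := by
          have h5 : ((b * e) * (b * e)) ^ (k + 1) = (b * e) ^ (orderOf (b * e)) * (b * e) := by
            rw [hk, ← pow_two, ← pow_mul, ← pow_succ]
            congr 1
          rw [h5, pow_orderOf_eq_one, one_mul]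
        rw [← h4]
        exact N.pow_mem hsq _
      apply hND _ hzD
      have h5 : b * a = (b * e) * (a * e)⁻¹ := by
        rw [hbe_eq]
        group
      rw [h5]
      exact N.mul_mem h3 (N.inv_mem hy)
    · exfalso
      apply hND _ h2.2
      rw [pow_two]
      exact hsq
  have h4 : (b * e) ^ 4 = 1 := by
    have h5 : (b * e) * (b * e) = 1 := by
      calc (b * e) * (b * e) = b * (e * b) * e := by group
        _ = b * (b * e) * e := by rw [hbe]
        _ = (b * b) * (e * e) := by group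
        _ = 1 := by rw [sq_one hD hb, sq_one hD heD, one_mul]
    calc (b * e) ^ 4 = ((b * e) * (b * e)) * ((b * e) * (b * e)) := by
          simp only [pow_succ, pow_zero, one_mul]
          group
      _ = 1 := by rw [h5, one_mul]
  obtain ⟨-, h6⟩ := core hD ha hb heD hab habD h1 hae h4
  have h7 : (a * b) * e = b * (a * e) := by
    rw [hab]
    group
  rw [h7] at h6
  refine not_odd_mul_of_commute hD hb h1 ?_ h6
  calc b * (a * e) = (b * a) * e := by group
    _ = (a * b) * e := by rw [hab]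
    _ = a * (b * e) := by group
    _ = a * (e * b) := by rw [hbe]
    _ = _ := by group

/-- A set of pairwise commuting involutions generates a group of exponent two. -/
theorem closure_sq_one {E : Set G} (hE : ∀ x ∈ E, ∀ y ∈ E, x * y = y * x) (hE2 : ∀ x ∈ E, x * x = 1)
    {z : G} (hz : z ∈ Subgroup.closure E) : z * z = 1 := by
  have h1 : ∀ w ∈ Subgroup.closure E, ∀ x ∈ E, w * x = x * w := by
    intro w hw x hx
    induction hw using Subgroup.closure_induction with
    | mem y hy => exact hE y hy x hx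
    | one => simp
    | mul u v _ _ hu hv =>
      calc u * v * x = u * (v * x) := by group
        _ = u * (x * v) := by rw [hv]
        _ = (u * x) * v := by group
        _ = (x * u) * v := by rw [hu]
        _ = _ := by group
    | inv u _ hu =>
      have h2 : x * u⁻¹ = u⁻¹ * x := by
        have := congrArg (fun t => u⁻¹ * t * u⁻¹) hu
        simpa [mul_assoc] using this
      exact h2.symm
  have h3 : ∀ w ∈ Subgroup.closure E, ∀ v ∈ Subgroup.closure E, w * v = v * w := by
    intro w hw v hv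
    induction hv using Subgroup.closure_induction with
    | mem y hy => exact h1 w hw y hy
    | one => simp
    | mul u v' _ _ hu hv =>
      calc w * (u * v') = (w * u) * v' := by group
        _ = (u * w) * v' := by rw [hu]
        _ = u * (w * v') := by group
        _ = u * (v' * w) := by rw [hv]
        _ = _ := by group
    | inv u _ hu =>
      have h2 : u⁻¹ * w = w * u⁻¹ := by
        have := congrArg (fun t => u⁻¹ * t * u⁻¹) hu
        simpa [mul_assoc] using this
      exact h2.symm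
  induction hz using Subgroup.closure_induction with
  | mem y hy => exact hE2 y hy
  | one => simp
  | mul u v hu hv hu2 hv2 =>
    calc u * v * (u * v) = u * (v * u) * v := by group
      _ = u * (u * v) * v := by rw [h3 v hv u hu]
      _ = (u * u) * (v * v) := by group
      _ = 1 := by rw [hu2, hv2, one_mul]
  | inv u _ hu2 =>
    rw [← mul_inv_rev, hu2, inv_one]

theorem mem_pCore_of_map [Finite G] {N : Subgroup G} (hN : N.Normal) {z : G} {hzN : z ∈ N}
    (hz : (⟨z, hzN⟩ : N) ∈ pCore 2 N) : z ∈ pCore 2 G := by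
  haveI : Fact (Nat.Prime 2) := ⟨Nat.prime_two⟩
  have h1 : ((pCore 2 N).map N.subtype).Normal := Cfsg.Agent.Lib.Amalgam.map_pCore_normal N hN
  have h2 : IsPGroup 2 ((pCore 2 N).map N.subtype) := by
    rintro ⟨w, u, hu, rfl⟩
    obtain ⟨k, hk⟩ := Cfsg.Agent.Lib.Core.pCore_isPGroup 2 N ⟨u, hu⟩
    refine ⟨k, Subtype.ext ?_⟩
    have := congrArg (fun t => ((t : N) : G)) (congrArg Subtype.val hk)
    simpa using this
  exact Cfsg.Agent.Lib.Core.le_pCore h1 h2 ⟨⟨z, hzN⟩, hz, rfl⟩

/-- The elements `[a, n]` lie in `O₂(G)`. -/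
theorem comm_mem_pCore [Finite G] (hD : IsRootInvolutionSet D) (hc : IsConnectedSet (OddAdj D) D)
    (hDD : (D ∩ commutingProducts D).Nonempty) {N : Subgroup G} (hN : N.Normal)
    (hND : ∀ d ∈ D, d ∉ N) {a : G} (ha : a ∈ D) {n : G} (hn : n ∈ N) :
    a * (n * a * n⁻¹) ∈ pCore 2 G := by
  haveI : Fact (Nat.Prime 2) := ⟨Nat.prime_two⟩
  set E : Set G := {e | ∃ m ∈ N, e = m * a * m⁻¹} with hE
  have hED : ∀ x ∈ E, x ∈ D := by
    rintro x ⟨m, -, rfl⟩
    exact hD.conj_mem a ha m
  have hE1 : ∀ x ∈ E, ∀ y ∈ E, x * y = y * x := by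
    rintro x ⟨m, hm, rfl⟩ y ⟨l, hl, rfl⟩
    have h1 := commute_conj_of_normal_disjoint hD hc hDD hN hND ha (N.mul_mem (N.inv_mem hm) hl)
    have h2 := congrArg (fun t => m * t * m⁻¹) h1
    calc m * a * m⁻¹ * (l * a * l⁻¹) = m * (a * (m⁻¹ * l * a * (m⁻¹ * l)⁻¹)) * m⁻¹ := by group
      _ = m * (m⁻¹ * l * a * (m⁻¹ * l)⁻¹ * a) * m⁻¹ := h2
      _ = _ := by group
  have hE2 : ∀ x ∈ E, x * x = 1 := fun x hx => sq_one hD (hED x hx)
  have hcl : ∀ g ∈ N, ∀ w ∈ Subgroup.closure E, g * w * g⁻¹ ∈ Subgroup.closure E := by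
    intro g hg w hw
    have hle : Subgroup.closure E ≤ (Subgroup.closure E).comap (MulAut.conj g).toMonoidHom := by
      rw [Subgroup.closure_le]
      rintro x ⟨m, hm, rfl⟩
      apply Subgroup.subset_closure
      refine ⟨g * m, N.mul_mem hg hm, ?_⟩
      simp
      group
    exact hle hw
  let K : Subgroup N := (Subgroup.closure E).comap N.subtype
  have hKn : K.Normal := by
    refine ⟨fun k hk g => ?_⟩
    exact hcl g g.2 k hk
  have hKp : IsPGroup 2 K := by
    rintro ⟨⟨w, hwN⟩, hw⟩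
    refine ⟨1, Subtype.ext (Subtype.ext ?_)⟩
    have h3 : w * w = 1 := closure_sq_one hE1 hE2 hw
    simpa [pow_two] using h3
  have hyN : a * (n * a * n⁻¹) ∈ N := by
    have h1 : a * (n * a * n⁻¹) = (a * n * a⁻¹) * n⁻¹ := by
      rw [inv_eq hD ha]
      group
    rw [h1]
    exact N.mul_mem (hN.conj_mem n hn a) (N.inv_mem hn)
  have hyK : (⟨a * (n * a * n⁻¹), hyN⟩ : N) ∈ K := by
    show a * (n * a * n⁻¹) ∈ Subgroup.closure E
    exact Subgroup.mul_mem _ (Subgroup.subset_closure ⟨1, N.one_mem, by simp⟩)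
      (Subgroup.subset_closure ⟨n, hn, rfl⟩)
  exact mem_pCore_of_map hN (Cfsg.Agent.Lib.Core.le_pCore hKn hKp hyK)

/-- A normal subgroup missing `D` lies in `O_{2,Z}(G)`. -/
theorem le_twoZCore [Finite G] (hD : IsRootInvolutionSet D) (hc : IsConnectedSet (OddAdj D) D)
    (hDD : (D ∩ commutingProducts D).Nonempty) {N : Subgroup G} (hN : N.Normal)
    (hND : ∀ d ∈ D, d ∉ N) : N ≤ twoZCore G := by
  intro n hn
  show QuotientGroup.mk' (pCore 2 G) n ∈ Subgroup.center (G ⧸ pCore 2 G)
  rw [Subgroup.mem_center_iff]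
  intro gbar
  obtain ⟨g, rfl⟩ := QuotientGroup.mk'_surjective _ gbar
  have hg : g ∈ Subgroup.closure D := by rw [hD.generates]; trivial
  induction hg using Subgroup.closure_induction with
  | mem a ha =>
    have h1 := comm_mem_pCore hD hc hDD hN hND ha (N.inv_mem hn)
    have h2 := Subgroup.inv_mem _ h1
    rw [← map_mul, ← map_mul]
    rw [QuotientGroup.mk'_apply, QuotientGroup.mk'_apply, QuotientGroup.eq]
    have h3 : (a * n)⁻¹ * (n * a) = (a * (n⁻¹ * a * n⁻¹⁻¹))⁻¹ := by
      have hinv := inv_eq hD ha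
      calc (a * n)⁻¹ * (n * a) = n⁻¹ * a⁻¹ * n * a := by group
        _ = n⁻¹ * a⁻¹ * n * a⁻¹ := by rw [hinv]
        _ = _ := by group
    rw [h3]
    exact h2
  | one => simp
  | mul u v _ _ hu hv =>
    rw [map_mul]
    calc _ = QuotientGroup.mk' (pCore 2 G) u * (QuotientGroup.mk' (pCore 2 G) v * QuotientGroup.mk' (pCore 2 G) n) := by
          group
      _ = _ := by rw [hv, ← mul_assoc, hu, mul_assoc]
  | inv u _ hu =>
    rw [map_inv]
    have := congrArg (fun t => (QuotientGroup.mk' (pCore 2 G) u)⁻¹ * t * (QuotientGroup.mk' (pCore 2 G) u)⁻¹) hu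
    simpa [mul_assoc] using this.symm

/-- The square of an odd product is not in `O_{2,Z}(G)`. -/
theorem sq_not_mem_twoZCore [Finite G] (hD : IsRootInvolutionSet D) {a x : G} (h : OddAdj D a x) :
    (a * x) * (a * x) ∉ twoZCore G := by
  haveI : Fact (Nat.Prime 2) := ⟨Nat.prime_two⟩
  intro hmem
  obtain ⟨ha, hx, hne, hodd⟩ := h
  have haa := sq_one hD ha
  have hxx := sq_one hD hx
  set w := a * x with hw
  have h1 : QuotientGroup.mk' (pCore 2 G) (w * w) ∈ Subgroup.center (G ⧸ pCore 2 G) := hmem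
  rw [Subgroup.mem_center_iff] at h1
  have h2 := h1 (QuotientGroup.mk' (pCore 2 G) a)
  rw [← map_mul, ← map_mul, QuotientGroup.mk'_apply, QuotientGroup.mk'_apply, QuotientGroup.eq] at h2
  have hwi : a * w * a⁻¹ = w⁻¹ := by
    rw [hw, mul_inv_rev, inv_eq hD ha, inv_eq hD hx]
    calc a * (a * x) * a = (a * a) * x * a := by group
      _ = x * a := by rw [haa, one_mul]
  have h3 : (a * (w * w))⁻¹ * (w * w * a) = (w⁻¹ * w⁻¹ * w⁻¹ * w⁻¹) := by
    have hwi2 : a * w⁻¹ * a⁻¹ = w := by
      have e0 : a * w⁻¹ * a⁻¹ = (a * w * a⁻¹)⁻¹ := by group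
      rw [e0, hwi, inv_inv]
    have h4 : w * w * a = a * (w⁻¹ * w⁻¹) := by
      calc w * w * a = (a * w⁻¹ * a⁻¹) * (a * w⁻¹ * a⁻¹) * a := by rw [hwi2]
        _ = _ := by group
    rw [h4]
    group
  rw [h3] at h2
  obtain ⟨k, hk⟩ := Cfsg.Agent.Lib.Core.pCore_isPGroup 2 G ⟨_, h2⟩
  have hk2 : (w⁻¹ * w⁻¹ * w⁻¹ * w⁻¹) ^ 2 ^ k = 1 := congrArg Subtype.val hk
  have h5 : w⁻¹ * w⁻¹ * w⁻¹ * w⁻¹ = (w⁻¹) ^ (2 ^ 2) := by
    simp only [pow_succ, pow_zero, one_mul]
    norm_num
    group
  rw [h5, ← pow_mul, ← pow_add, inv_pow, inv_eq_one] at hk2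
  have h6 : orderOf w ∣ 2 ^ (2 + k) := orderOf_dvd_of_pow_eq_one hk2
  have h7 : orderOf w = 1 := by
    have hcop : Nat.Coprime (orderOf w) (2 ^ (2 + k)) :=
      Nat.Coprime.pow_right _ (Nat.coprime_two_right.2 hodd)
    exact Nat.Coprime.eq_one_of_dvd hcop h6
  rw [orderOf_eq_one_iff] at h7
  apply hne
  have := eq_inv_of_mul_eq_one_left h7
  rwa [inv_eq hD hx] at this

theorem not_mem_twoZCore [Finite G] (hD : IsRootInvolutionSet D) (hc : IsConnectedSet (OddAdj D) D)
    (hDD : (D ∩ commutingProducts D).Nonempty) {a : G} (ha : a ∈ D) : a ∉ twoZCore G := by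
  intro hmem
  obtain ⟨x, hx⟩ := exists_adj hD hc hDD ha
  apply sq_not_mem_twoZCore hD hx
  have e : (a * x) * (a * x) = a * (x * a * x⁻¹) := by
    rw [inv_eq hD hx.2.1]
    group
  rw [e]
  exact Subgroup.mul_mem _ hmem ((twoZCore_normal G).conj_mem a hmem x)

theorem isSimpleGroup_quot [Finite G] (hD : IsRootInvolutionSet D) (hc : IsConnectedSet (OddAdj D) D)
    (hDD : (D ∩ commutingProducts D).Nonempty) : IsSimpleGroup (G ⧸ twoZCore G) := by
  obtain ⟨c, hcD, -⟩ := hDD.elim (fun c hc => (⟨c, hc.1, trivial⟩ : ∃ c, c ∈ D ∧ True))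
  haveI : Nontrivial (G ⧸ twoZCore G) := by
    refine ⟨⟨QuotientGroup.mk' (twoZCore G) c, 1, ?_⟩⟩
    intro e
    apply not_mem_twoZCore hD hc hDD hcD
    have := (QuotientGroup.eq_one_iff c).1 e
    exact this
  refine ⟨fun H hH => ?_⟩
  by_cases hmem : ∃ d ∈ D, QuotientGroup.mk' (twoZCore G) d ∈ H
  · right
    obtain ⟨d, hd, hdH⟩ := hmem
    have hNn : (H.comap (QuotientGroup.mk' (twoZCore G))).Normal := hH.comap _
    have h1 := eq_top_of_mem hD hc hNn hd hdH
    rw [eq_top_iff]
    intro h _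
    obtain ⟨g, rfl⟩ := QuotientGroup.mk'_surjective _ h
    have : g ∈ H.comap (QuotientGroup.mk' (twoZCore G)) := by rw [h1]; trivial
    exact this
  · left
    push Not at hmem
    have hNn : (H.comap (QuotientGroup.mk' (twoZCore G))).Normal := hH.comap _
    have h1 := le_twoZCore hD hc hDD hNn (fun d hd hdN => hmem d hd hdN)
    rw [eq_bot_iff]
    intro h hh
    obtain ⟨g, rfl⟩ := QuotientGroup.mk'_surjective _ h
    have h2 : g ∈ twoZCore G := h1 hh
    rw [Subgroup.mem_bot]
    exact (QuotientGroup.eq_one_iff g).2 h2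

theorem isSolvable_twoZCore [Finite G] : Group.IsSolvable (twoZCore G) := by
  haveI : Fact (Nat.Prime 2) := ⟨Nat.prime_two⟩
  have hQ : pCore 2 G ≤ twoZCore G := by
    intro q hq
    show QuotientGroup.mk' (pCore 2 G) q ∈ Subgroup.center (G ⧸ pCore 2 G)
    have h0 : QuotientGroup.mk' (pCore 2 G) q = 1 := (QuotientGroup.eq_one_iff q).2 hq
    rw [h0]
    exact Subgroup.one_mem _
  haveI : Finite (pCore 2 G) := inferInstance
  haveI : Group.IsNilpotent (pCore 2 G) := (Cfsg.Agent.Lib.Core.pCore_isPGroup 2 G).isNilpotent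
  haveI : Group.IsSolvable (pCore 2 G) := inferInstance
  haveI : Group.IsSolvable (Subgroup.center (G ⧸ pCore 2 G)) :=
    Group.isSolvable_of_comm (fun a b => Subtype.ext (Subgroup.mem_center_iff.1 b.2 a.1))
  let f : pCore 2 G →* twoZCore G := Subgroup.inclusion hQ
  let g : twoZCore G →* Subgroup.center (G ⧸ pCore 2 G) :=
    ((QuotientGroup.mk' (pCore 2 G)).comp (twoZCore G).subtype).codRestrict _ (fun x => x.2)
  refine solvable_of_ker_le_range f g ?_
  rintro ⟨x, hx⟩ hker
  have h1 : QuotientGroup.mk' (pCore 2 G) x = 1 := congrArg Subtype.val hker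
  have h2 : x ∈ pCore 2 G := (QuotientGroup.eq_one_iff x).1 h1
  exact ⟨⟨x, h2⟩, rfl⟩

theorem solvableRadical_eq [Finite G] (hD : IsRootInvolutionSet D) (hc : IsConnectedSet (OddAdj D) D)
    (hDD : (D ∩ commutingProducts D).Nonempty) : solvableRadical G = twoZCore G := by
  apply le_antisymm
  · apply sSup_le
    rintro N ⟨hN, hsolv⟩
    by_cases hmem : ∃ d ∈ D, d ∈ N
    · exfalso
      obtain ⟨d, hd, hdN⟩ := hmem
      have h1 := eq_top_of_mem hD hc hN hd hdN
      subst h1
      haveI : Group.IsSolvable G := solvable_of_surjective (f := (⊤ : Subgroup G).subtype)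
        (fun g => ⟨⟨g, trivial⟩, rfl⟩)
      haveI : Nontrivial G := ⟨⟨d, 1, ne_one hD hd⟩⟩
      have h2 := IsSolvable.commutator_lt_top_of_nontrivial G
      have hcomN : (commutator G).Normal := inferInstance
      have h3 : ∀ a ∈ D, a ∉ commutator G := by
        intro a ha haC
        exact h2.ne (eq_top_of_mem hD hc hcomN ha haC)
      have h4 := le_twoZCore hD hc hDD hcomN h3
      obtain ⟨x, hx⟩ := exists_adj hD hc hDD hd
      apply sq_not_mem_twoZCore hD hx
      apply h4
      have e : (d * x) * (d * x) = ⁅d, x⁆ := by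
        rw [commutatorElement_def, inv_eq hD hd, inv_eq hD hx.2.1]
        group
      rw [e]
      exact Subgroup.commutator_mem_commutator (Subgroup.mem_top d) (Subgroup.mem_top x)
    · push Not at hmem
      exact le_twoZCore hD hc hDD hN hmem
  · exact le_sSup ⟨twoZCore_normal G, isSolvable_twoZCore⟩

end Cfsg.Agent.Lib.RootInv
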