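import Cfsg.Agent.Lib.RootInv.Simple

/-!
Root involutions with connected graph `𝓕(D)`: members with the same odd partners commute and have
the same commuting members.
-/

set_option autoImplicit false

namespace Cfsg.Agent.Lib.RootInv

open Cfsg

variable {G : Type*} [Group G] {D : Set G}

theorem eq_one_of_odd_pow4 {y : G} (hy : Odd (orderOf y)) (h : y ^ 4 = 1) : y = 1 := by
  have h1 : orderOf y ∣ 4 := orderOf_dvd_of_pow_eq_one h
  have h2 : orderOf y ≤ 4 := Nat.le_of_dvd (by norm_num) h1
  rw [← orderOf_eq_one_iff]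
  generalize orderOf y = n at *
  interval_cases n
  · exact absurd hy (by decide)
  · rfl
  · exact absurd hy (by decide)
  · exact absurd h1 (by decide)
  · exact absurd hy (by decide)

theorem order_conj (g x : G) : orderOf (g * x * g⁻¹) = orderOf x :=
  MulEquiv.orderOf_eq (MulAut.conj g) x

theorem odd_conj (hD : IsRootInvolutionSet D) {e f : G} (g : G) (h : f ∈ oddPartners D e) :
    g * f * g⁻¹ ∈ oddPartners D (g * e * g⁻¹) := by
  refine ⟨hD.conj_mem f h.1 g, fun e1 => h.2.1 ?_, ?_⟩
  · simpa using e1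
  · have e2 : g * e * g⁻¹ * (g * f * g⁻¹) = g * (e * f) * g⁻¹ := by group
    rw [e2, order_conj]
    exact h.2.2

theorem odd_conj_iff (hD : IsRootInvolutionSet D) {e f : G} (g : G) :
    g * f * g⁻¹ ∈ oddPartners D (g * e * g⁻¹) ↔ f ∈ oddPartners D e := by
  refine ⟨fun h => ?_, odd_conj hD g⟩
  have := odd_conj hD g⁻¹ h
  have e1 : g⁻¹ * (g * f * g⁻¹) * g⁻¹⁻¹ = f := by group
  have e2 : g⁻¹ * (g * e * g⁻¹) * g⁻¹⁻¹ = e := by group
  rwa [e1, e2] at this

theorem odd_image (hD : IsRootInvolutionSet D) (e g : G) :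
    oddPartners D (g * e * g⁻¹) = (fun f => g * f * g⁻¹) '' oddPartners D e := by
  ext y
  constructor
  · intro h
    refine ⟨g⁻¹ * y * g, ?_, by group⟩
    rw [← odd_conj_iff hD g]
    have e1 : g * (g⁻¹ * y * g) * g⁻¹ = y := by group
    rwa [e1]
  · rintro ⟨f, hf, rfl⟩
    exact odd_conj hD g hf

theorem odd_ncard (hD : IsRootInvolutionSet D) (e g : G) :
    (oddPartners D (g * e * g⁻¹)).ncard = (oddPartners D e).ncard := by
  rw [odd_image hD]
  apply Set.ncard_image_of_injective
  intro a b h
  simpa using h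

theorem odd_eq_of_subset [Finite G] (hD : IsRootInvolutionSet D) (hc : IsConnectedSet (OddAdj D) D)
    {e e' : G} (he : e ∈ D) (he' : e' ∈ D) (h : oddPartners D e ⊆ oddPartners D e') :
    oddPartners D e = oddPartners D e' := by
  obtain ⟨g, rfl⟩ := conj_of_connected hD hc he he'
  apply Set.eq_of_subset_of_ncard_le h
  rw [odd_ncard hD]

/-- A member commuting with one point of a line has no odd product with another point. -/
theorem line_not_odd (hD : IsRootInvolutionSet D) {p q f : G} (hp : p ∈ D) (hq : q ∈ D) (hf : f ∈ D)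
    (hpq : p * q = q * p) (hpqD : p * q ∈ D) (hfp : f * p = p * f) (hodd : Odd (orderOf (q * f))) :
    q = f := by
  have hc : p * (q * f) = (q * f) * p := by
    calc p * (q * f) = (p * q) * f := by group
      _ = (q * p) * f := by rw [hpq]
      _ = q * (p * f) := by group
      _ = q * (f * p) := by rw [hfp]
      _ = _ := by group
  have hn := not_odd_mul_of_commute hD hp hodd hc
  have h4 := pow4 hD hpqD hf (by rw [mul_assoc]; exact hn)
  rw [mul_assoc] at h4
  have hcomm : Commute p (q * f) := hc
  rw [hcomm.mul_pow] at h4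
  have hp4 : p ^ 4 = 1 := by
    calc p ^ 4 = (p * p) * (p * p) := by simp only [pow_succ, pow_zero, one_mul, mul_assoc]
      _ = 1 := by rw [sq_one hD hp, one_mul]
  rw [hp4, one_mul] at h4
  have h1 := eq_one_of_odd_pow4 hodd h4
  have h2 : q = f⁻¹ := eq_inv_of_mul_eq_one_left h1
  rw [h2, inv_eq hD hf]

theorem sq_conj_mul (hD : IsRootInvolutionSet D) {a v : G} (ha : a ∈ D) :
    a * v * a ∈ D ∨ v ∉ D := by
  by_cases hv : v ∈ D
  · left
    have := hD.conj_mem v hv a
    rwa [inv_eq hD ha] at this
  · exact Or.inr hv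

theorem conj_self_mem (hD : IsRootInvolutionSet D) {a v : G} (ha : a ∈ D) (hv : v ∈ D) :
    a * v * a ∈ D := by
  have := hD.conj_mem v hv a
  rwa [inv_eq hD ha] at this

/-- If `a` moves `v` to a commuting member, the product is a member. -/
theorem swap_mem (hD : IsRootInvolutionSet D) {a v : G} (ha : a ∈ D) (hv : v ∈ D)
    (hne : a * v * a ≠ v) (hcomm : v * (a * v * a) = (a * v * a) * v) : v * (a * v * a) ∈ D := by
  have haa := sq_one hD ha
  have hvv := sq_one hD hv
  have hs : (a * v) ^ 2 = (a * v * a) * v := by rw [pow_two]; group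
  rcases hD.pair a ha v hv with h | h | h
  · exfalso
    apply hne
    rw [h, mul_assoc, haa, mul_one]
  · exfalso
    have h4 : (a * v) ^ 4 = 1 := by
      have e : (a * v) ^ 4 = ((a * v) ^ 2) * ((a * v) ^ 2) := by
        rw [← pow_add]
      rw [e, hs]
      calc (a * v * a) * v * ((a * v * a) * v) = (a * v * a) * (v * (a * v * a)) * v := by group
        _ = (a * v * a) * ((a * v * a) * v) * v := by rw [hcomm]
        _ = ((a * v * a) * (a * v * a)) * (v * v) := by group
        _ = 1 := by
          rw [sq_one hD (conj_self_mem hD ha hv), hvv, one_mul]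
    have h1 := eq_one_of_odd_pow4 h h4
    apply hne
    have h2 : a = v⁻¹ := eq_inv_of_mul_eq_one_left h1
    rw [h2, inv_eq hD hv, hvv, one_mul]
  · have := h.2
    rw [hs, ← hcomm] at this
    exact this

/-- If `a` moves `v` to a member with even product with `v`, they commute. -/
theorem swap_comm (hD : IsRootInvolutionSet D) {a v : G} (ha : a ∈ D) (hv : v ∈ D)
    (hnot : ¬ Odd (orderOf (v * (a * v * a)))) : v * (a * v * a) = (a * v * a) * v := by
  have haa := sq_one hD ha
  have hvv := sq_one hD hv
  have hw := conj_self_mem hD ha hv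
  have hww := sq_one hD hw
  have hs : (a * v) ^ 2 = (a * v * a) * v := by rw [pow_two]; group
  rcases hD.pair a ha v hv with h | h | h
  · rw [h, mul_assoc v a a, haa, mul_one]
  · exfalso
    apply hnot
    rw [order_mul_comm hD hw hv, ← hs]
    have h2 : orderOf ((a * v) ^ 2) ∣ orderOf (a * v) := by
      apply orderOf_dvd_of_pow_eq_one
      rw [← pow_mul, mul_comm, pow_mul, pow_orderOf_eq_one, one_pow]
    exact Odd.of_dvd_nat h h2
  · have h4 : (a * v) ^ 4 = 1 := by rw [← h.1]; exact pow_orderOf_eq_one _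
    have e : (a * v) ^ 4 = ((a * v) ^ 2) * ((a * v) ^ 2) := by
      rw [← pow_add]
    rw [e, hs] at h4
    -- `x y x y = 1` with involutions
    have h5 : (a * v * a) * v = ((a * v * a) * v)⁻¹ := eq_inv_of_mul_eq_one_left h4
    rw [mul_inv_rev, inv_eq hD hv, inv_eq hD hw] at h5
    exact h5.symm

theorem polar_aux {p s w q r : G} (hpp : p * p = 1) (hqq : q * q = 1) (hrr : r * r = 1)
    (hA : q * w = w * r) (hB2 : p * w * p = s) (hsw : s * w = w * s)
    (hq : q * (p * q * p) = (p * q * p) * q)
    (hB : (s * q) * (w * (p * q * p)) = (w * (p * q * p)) * (s * q)) :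
    (p * q * p) * (p * r * p) = q * r := by
  have hC : (p * q * p) * s = s * (p * r * p) := by
    calc (p * q * p) * s = (p * q * p) * (p * w * p) := by rw [hB2]
      _ = p * q * (p * p) * w * p := by group
      _ = p * (q * w) * p := by rw [hpp]; group
      _ = p * (w * r) * p := by rw [hA]
      _ = p * w * (p * p) * r * p := by rw [hpp]; group
      _ = (p * w * p) * (p * r * p) := by group
      _ = s * (p * r * p) := by rw [hB2]
  have hr'r' : (p * r * p) * (p * r * p) = 1 := by
    calc (p * r * p) * (p * r * p) = p * r * (p * p) * r * p := by group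
      _ = p * (r * r) * p := by rw [hpp]; group
      _ = 1 := by rw [hrr, mul_one, hpp]
  have hD1 : r * (p * q * p) = (p * r * p) * q := by
    have e1 : (s * q) * (w * (p * q * p)) = (s * w) * (r * (p * q * p)) := by
      calc (s * q) * (w * (p * q * p)) = s * (q * w) * (p * q * p) := by group
        _ = s * (w * r) * (p * q * p) := by rw [hA]
        _ = _ := by group
    have e2 : (w * (p * q * p)) * (s * q) = (w * s) * ((p * r * p) * q) := by
      calc (w * (p * q * p)) * (s * q) = w * ((p * q * p) * s) * q := by group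
        _ = w * (s * (p * r * p)) * q := by rw [hC]
        _ = _ := by group
    rw [e1, e2, hsw] at hB
    exact mul_left_cancel hB
  have h1 : (p * q * p) = r * (p * r * p) * q := by
    calc (p * q * p) = (r * r) * (p * q * p) := by rw [hrr, one_mul]
      _ = r * (r * (p * q * p)) := by group
      _ = r * ((p * r * p) * q) := by rw [hD1]
      _ = _ := by group
  have h2 : (p * q * p) * q = r * (p * r * p) := by
    calc (p * q * p) * q = (r * (p * r * p) * q) * q := by rw [← h1]
      _ = r * (p * r * p) * (q * q) := by group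
      _ = _ := by rw [hqq, mul_one]
  have hF : q * (p * q * p) = r * (p * r * p) := by rw [hq, h2]
  have h3 : (p * q * p) = q * (r * (p * r * p)) := by
    rw [← hF]
    calc (p * q * p) = (q * q) * (p * q * p) := by rw [hqq, one_mul]
      _ = _ := by group
  calc (p * q * p) * (p * r * p) = (q * (r * (p * r * p))) * (p * r * p) := by rw [← h3]
    _ = q * r * ((p * r * p) * (p * r * p)) := by group
    _ = _ := by rw [hr'r', mul_one]

/-- Polarisation. -/
theorem polar {p s z q : G} (hpp : p * p = 1) (hss : s * s = 1) (hzz : z * z = 1) (hqq : q * q = 1)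
    (hpsp : p * s * p = z * s) (hzs : z * s = s * z) (hsq : s * q = q * s)
    (hq : q * (p * q * p) = (p * q * p) * q)
    (hB : (s * q) * (p * (s * q) * p) = (p * (s * q) * p) * (s * q)) :
    p * (q * (z * q * z)) = (q * (z * q * z)) * p := by
  have hrr : (z * q * z) * (z * q * z) = 1 := by
    calc (z * q * z) * (z * q * z) = z * q * (z * z) * q * z := by group
      _ = z * (q * q) * z := by rw [hzz]; group
      _ = 1 := by rw [hqq, mul_one, hzz]
  have hsw : s * (z * s) = (z * s) * s := by
    calc s * (z * s) = (s * z) * s := by group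
      _ = (z * s) * s := by rw [hzs]
  have hA : q * (z * s) = (z * s) * (z * q * z) := by
    calc q * (z * s) = (z * z) * q * (z * s) := by rw [hzz, one_mul]
      _ = z * (z * q * z) * s := by group
      _ = z * (z * q * z) * s := rfl
      _ = z * ((z * q * z) * s) := by group
      _ = z * (s * (z * q * z)) := by
          congr 1
          calc (z * q * z) * s = z * q * (z * s) := by group
            _ = z * q * (s * z) := by rw [hzs]
            _ = z * (q * s) * z := by group
            _ = z * (s * q) * z := by rw [hsq]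
            _ = (z * s) * q * z := by group
            _ = (s * z) * q * z := by rw [hzs]
            _ = _ := by group
      _ = _ := by group
  have hB2 : p * (z * s) * p = s := by
    rw [← hpsp]
    calc p * (p * s * p) * p = (p * p) * s * (p * p) := by group
      _ = s := by rw [hpp, one_mul, mul_one]
  have hB' : p * (s * q) * p = (z * s) * (p * q * p) := by
    calc p * (s * q) * p = p * s * (p * p) * q * p := by rw [hpp]; group
      _ = (p * s * p) * (p * q * p) := by group
      _ = _ := by rw [hpsp]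
  rw [hB'] at hB
  have hG := polar_aux hpp hqq hrr hA hB2 hsw hq hB
  have e : p * (q * (z * q * z)) * p = (p * q * p) * (p * (z * q * z) * p) := by
    calc p * (q * (z * q * z)) * p = p * q * (p * p) * (z * q * z) * p := by rw [hpp]; group
      _ = _ := by group
  calc p * (q * (z * q * z)) = (p * (q * (z * q * z)) * p) * p := by
        rw [mul_assoc _ p p, hpp, mul_one]
    _ = ((p * q * p) * (p * (z * q * z) * p)) * p := by rw [e]
    _ = (q * (z * q * z)) * p := by rw [hG]

/-- Conjugates of `s` under powers of `r`. -/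
def bk (r s : G) (k : ℤ) : G := r ^ k * s * r ^ (-k)

/-- Reflections of the dihedral group. -/
def ak (r z : G) (k : ℤ) : G := r ^ k * z * r ^ (-k)

/-- The configuration. -/
structure KD (D : Set G) (z s u : G) (h : ℕ) : Prop where
  hD : IsRootInvolutionSet D
  hz : z ∈ D
  hs : s ∈ D
  hu : u ∈ D
  hzs : z * s = s * z
  h4 : (s * u) ^ 4 = 1
  hm : (z * u) ^ (2 * h + 1) = 1

section KD

variable {z s u : G} {h : ℕ}

theorem KD.r_inv (K : KD D z s u h) : z * (z * u) * z = (z * u)⁻¹ := by
  rw [mul_inv_rev, inv_eq K.hD K.hz, inv_eq K.hD K.hu]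
  calc z * (z * u) * z = (z * z) * u * z := by group
    _ = u * z := by rw [sq_one K.hD K.hz, one_mul]

theorem KD.z_zpow (K : KD D z s u h) (k : ℤ) : z * (z * u) ^ k * z = (z * u) ^ (-k) := by
  have h1 := conj_zpow (a := z) (b := z * u) (i := k)
  rw [inv_eq K.hD K.hz, K.r_inv] at h1
  rw [← h1, inv_zpow, zpow_neg]

theorem KD.zsz (K : KD D z s u h) : z * s * z = s := by
  rw [K.hzs, mul_assoc, sq_one K.hD K.hz, mul_one]

theorem KD.bk_mem (K : KD D z s u h) (k : ℤ) : bk (z * u) s k ∈ D := by
  have := K.hD.conj_mem s K.hs ((z * u) ^ k)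
  rwa [← zpow_neg] at this

theorem KD.ak_mem (K : KD D z s u h) (k : ℤ) : ak (z * u) z k ∈ D := by
  have := K.hD.conj_mem z K.hz ((z * u) ^ k)
  rwa [← zpow_neg] at this

theorem bk_zero (r s : G) : bk r s 0 = s := by simp [bk]

theorem KD.mul_conj (K : KD D z s u h) (x y w : G) :
    z * (x * y * w) * z = (z * x * z) * (z * y * z) * (z * w * z) := by
  have hzz := sq_one K.hD K.hz
  calc z * (x * y * w) * z = z * x * (z * z) * y * (z * z) * w * z := by
        rw [hzz]; group
    _ = _ := by group

theorem KD.ak_bk (K : KD D z s u h) (k i : ℤ) :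
    ak (z * u) z k * bk (z * u) s i * ak (z * u) z k = bk (z * u) s (2 * k - i) := by
  unfold ak bk
  generalize hr : z * u = r at *
  have key : z * (r ^ (i - k) * s * r ^ (k - i)) * z = r ^ (k - i) * s * r ^ (i - k) := by
    rw [K.mul_conj, ← hr, K.z_zpow, K.z_zpow, K.zsz]
    simp
  calc r ^ k * z * r ^ (-k) * (r ^ i * s * r ^ (-i)) * (r ^ k * z * r ^ (-k))
      = r ^ k * (z * (r ^ (i - k) * s * r ^ (k - i)) * z) * r ^ (-k) := by group
    _ = r ^ k * (r ^ (k - i) * s * r ^ (i - k)) * r ^ (-k) := by rw [key]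
    _ = _ := by group

theorem KD.zpow_m (K : KD D z s u h) : (z * u) ^ (2 * (h : ℤ) + 1) = 1 := by
  have := K.hm
  rw [← zpow_natCast] at this
  push_cast at this
  exact this

theorem KD.bk_period (K : KD D z s u h) (i j : ℤ) :
    bk (z * u) s (i + j * (2 * h + 1)) = bk (z * u) s i := by
  unfold bk
  have h1 : (z * u) ^ (i + j * (2 * (h : ℤ) + 1)) = (z * u) ^ i := by
    rw [zpow_add, mul_comm j, zpow_mul, K.zpow_m, one_zpow, mul_one]
  have h2 : (z * u) ^ (-(i + j * (2 * (h : ℤ) + 1))) = (z * u) ^ (-i) := by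
    rw [zpow_neg, h1, zpow_neg]
  rw [h1, h2]

theorem KD.ak_swap (K : KD D z s u h) (j : ℤ) :
    ak (z * u) z (j * (h + 1)) * s * ak (z * u) z (j * (h + 1)) = bk (z * u) s j := by
  have h1 := K.ak_bk (j * (h + 1)) 0
  rw [bk_zero] at h1
  rw [h1]
  have e : 2 * (j * ((h : ℤ) + 1)) - 0 = j + j * (2 * h + 1) := by ring
  rw [e, K.bk_period]

theorem bk_shift (r s : G) (i n : ℤ) : bk r s (i + n) = r ^ i * bk r s n * r ^ (-i) := by
  unfold bk
  group

theorem KD.adj (K : KD D z s u h) : s * bk (z * u) s 1 = bk (z * u) s 1 * s := by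
  have hD := K.hD
  have e : bk (z * u) s 1 = z * (u * s * u) * z := by
    unfold bk
    rw [zpow_one, zpow_neg, zpow_one, mul_inv_rev, inv_eq hD K.hz, inv_eq hD K.hu]
    group
  have h4' : (u * s) ^ 4 = 1 := by
    have h1 : (s * u)⁻¹ = u * s := inv_mul hD K.hs K.hu
    rw [← h1, inv_pow, K.h4, inv_one]
  have h5 := comm_of_pow4 hD K.hu K.hs h4'
  have hzz := sq_one hD K.hz
  have h6 : s * z = z * s := K.hzs.symm
  rw [e]
  calc s * (z * (u * s * u) * z) = (s * z) * (u * s * u) * z := by group
    _ = z * (s * (u * s * u)) * z := by rw [h6]; group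
    _ = z * ((u * s * u) * s) * z := by rw [h5]
    _ = z * (u * s * u) * (s * z) := by group
    _ = _ := by rw [h6]; group

theorem KD.adj_shift (K : KD D z s u h) (i : ℤ) :
    bk (z * u) s i * bk (z * u) s (i + 1) = bk (z * u) s (i + 1) * bk (z * u) s i := by
  have e0 : bk (z * u) s i = (z * u) ^ i * s * (z * u) ^ (-i) := rfl
  rw [bk_shift, e0]
  have e := K.adj
  generalize (z * u) = r at *
  generalize bk r s 1 = x at *
  calc r ^ i * s * r ^ (-i) * (r ^ i * x * r ^ (-i)) = r ^ i * (s * x) * r ^ (-i) := by group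
    _ = r ^ i * (x * s) * r ^ (-i) := by rw [e]
    _ = _ := by group

theorem KD.comm_nat (K : KD D z s u h) (n : ℕ) : s * bk (z * u) s n = bk (z * u) s n * s := by
  induction n with
  | zero => simp [bk_zero]
  | succ n ih =>
    cases n with
    | zero => simpa using K.adj
    | succ n =>
      have hD := K.hD
      push_cast at ih ⊢
      set j : ℤ := (n : ℤ) + 1 with hj
      have hadj := K.adj_shift j
      by_cases hb : bk (z * u) s j = s
      · rw [hb] at hadj
        exact hadj
      · set a := ak (z * u) z (j * (h + 1)) with ha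
        have hs1 : a * s * a = bk (z * u) s j := K.ak_swap j
        have haD : a ∈ D := K.ak_mem _
        have h1 : s * (a * s * a) ∈ D := by
          apply swap_mem hD haD K.hs
          · rw [hs1]; exact hb
          · rw [hs1]; exact ih
        rw [hs1] at h1
        have h2 : Odd (orderOf (s * bk (z * u) s (j + 1))) → s = bk (z * u) s (j + 1) := by
          intro hodd
          refine line_not_odd hD (K.bk_mem j) K.hs (K.bk_mem (j + 1)) ih.symm ?_ hadj.symm hodd
          rw [← ih]; exact h1
        by_cases hodd : Odd (orderOf (s * bk (z * u) s (j + 1)))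
        · have h3 := h2 hodd
          rw [← h3]
        · set a' := ak (z * u) z ((j + 1) * (h + 1)) with ha'
          have hs2 : a' * s * a' = bk (z * u) s (j + 1) := K.ak_swap (j + 1)
          have haD' : a' ∈ D := K.ak_mem _
          have h3 := swap_comm hD haD' K.hs (by rw [hs2]; exact hodd)
          rw [hs2] at h3
          exact h3

theorem KD.comm_all (K : KD D z s u h) (i j : ℤ) :
    bk (z * u) s i * bk (z * u) s j = bk (z * u) s j * bk (z * u) s i := by
  have key : ∀ (a : ℤ) (n : ℕ), bk (z * u) s a * bk (z * u) s (a + n) =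
      bk (z * u) s (a + n) * bk (z * u) s a := by
    intro a n
    have e0 : bk (z * u) s a = (z * u) ^ a * s * (z * u) ^ (-a) := rfl
    rw [bk_shift, e0]
    have e := K.comm_nat n
    generalize (z * u) = r at *
    generalize bk r s n = x at *
    calc r ^ a * s * r ^ (-a) * (r ^ a * x * r ^ (-a)) = r ^ a * (s * x) * r ^ (-a) := by group
      _ = r ^ a * (x * s) * r ^ (-a) := by rw [e]
      _ = _ := by group
  rcases le_total i j with hij | hij
  · obtain ⟨n, hn⟩ := Int.eq_ofNat_of_zero_le (sub_nonneg.2 hij)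
    have e : j = i + n := by omega
    rw [e]; exact key i n
  · obtain ⟨n, hn⟩ := Int.eq_ofNat_of_zero_le (sub_nonneg.2 hij)
    have e : i = j + n := by omega
    rw [e]; exact (key j n).symm

theorem KD.comm_s (K : KD D z s u h) (k : ℤ) : s * bk (z * u) s k = bk (z * u) s k * s := by
  have := K.comm_all 0 k
  rwa [bk_zero] at this

theorem KD.bk_z (K : KD D z s u h) (k : ℤ) : z * bk (z * u) s k * z = bk (z * u) s (-k) := by
  unfold bk
  rw [K.mul_conj, K.z_zpow, K.z_zpow, K.zsz]

theorem KD.bk_sq (K : KD D z s u h) (k : ℤ) : bk (z * u) s k * bk (z * u) s k = 1 :=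
  sq_one K.hD (K.bk_mem k)

/-- The symmetric partial products. -/
def jt (r s : G) (t : ℕ) : G := r ^ (-(t : ℤ)) * (s * r) ^ (2 * t + 1) * r ^ (-(t : ℤ) - 1)

theorem jt_zero (r s : G) : jt r s 0 = s := by
  simp [jt]

theorem jt_succ (r s : G) (t : ℕ) :
    jt r s (t + 1) = bk r s (-((t : ℤ) + 1)) * jt r s t * bk r s ((t : ℤ) + 1) := by
  unfold jt bk
  have e : (s * r) ^ (2 * (t + 1) + 1) = (s * r) * (s * r) ^ (2 * t + 1) * (s * r) := by
    rw [show 2 * (t + 1) + 1 = 1 + (2 * t + 1) + 1 by ring, pow_succ, pow_add, pow_one]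
  rw [e]
  generalize (s * r) ^ (2 * t + 1) = X
  push_cast
  group

theorem KD.jt_comm (K : KD D z s u h) (t : ℕ) (k : ℤ) :
    jt (z * u) s t * bk (z * u) s k = bk (z * u) s k * jt (z * u) s t := by
  induction t with
  | zero =>
    rw [jt_zero]; exact K.comm_s k
  | succ t ih =>
    rw [jt_succ]
    set A := bk (z * u) s (-((t : ℤ) + 1)) with hA
    set B := bk (z * u) s ((t : ℤ) + 1) with hB
    set J := jt (z * u) s t with hJ
    set C := bk (z * u) s k with hC
    have h1 : A * C = C * A := K.comm_all _ _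
    have h2 : B * C = C * B := K.comm_all _ _
    calc A * J * B * C = A * J * (B * C) := by group
      _ = A * (J * C) * B := by rw [h2]; group
      _ = (A * C) * J * B := by rw [ih]; group
      _ = _ := by rw [h1]; group

theorem KD.jt_sq (K : KD D z s u h) (t : ℕ) : jt (z * u) s t * jt (z * u) s t = 1 := by
  induction t with
  | zero =>
    rw [jt_zero]; exact sq_one K.hD K.hs
  | succ t ih =>
    rw [jt_succ]
    have h1 := K.jt_comm t (-((t : ℤ) + 1))
    have h2 := K.jt_comm t ((t : ℤ) + 1)
    have h3 := K.comm_all (-((t : ℤ) + 1)) ((t : ℤ) + 1)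
    have h4 := K.bk_sq (-((t : ℤ) + 1))
    have h5 := K.bk_sq ((t : ℤ) + 1)
    generalize bk (z * u) s (-((t : ℤ) + 1)) = A at *
    generalize bk (z * u) s ((t : ℤ) + 1) = B at *
    generalize jt (z * u) s t = J at *
    calc A * J * B * (A * J * B) = A * J * (B * A) * J * B := by group
      _ = A * (J * A) * (B * J) * B := by rw [← h3]; group
      _ = A * (A * J) * (J * B) * B := by rw [h1, h2]
      _ = (A * A) * (J * J) * (B * B) := by group
      _ = 1 := by rw [h4, ih, h5, one_mul, one_mul]

theorem KD.jt_h (K : KD D z s u h) (hodd : Odd (orderOf (s * (z * u)))) : jt (z * u) s h = 1 := by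
  have hJ := K.jt_sq h
  have hm := K.zpow_m
  unfold jt at hJ ⊢
  set r := z * u with hr
  set g := s * r with hg
  have e1 : r ^ (-(h : ℤ) - 1) = r ^ (h : ℤ) := by
    have e : -(h : ℤ) - 1 = (h : ℤ) + (-1) * (2 * h + 1) := by ring
    rw [e, zpow_add, mul_comm (-1 : ℤ) _, zpow_mul, hm, one_zpow, mul_one]
  rw [e1] at hJ ⊢
  have h2 : g ^ (2 * h + 1) * g ^ (2 * h + 1) = 1 := by
    generalize g ^ (2 * h + 1) = X at *
    have : r ^ (-(h : ℤ)) * (X * X) * r ^ (h : ℤ) = 1 := by
      calc r ^ (-(h : ℤ)) * (X * X) * r ^ (h : ℤ)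
          = r ^ (-(h : ℤ)) * X * r ^ (h : ℤ) * (r ^ (-(h : ℤ)) * X * r ^ (h : ℤ)) := by group
        _ = 1 := hJ
    have h3 : X * X = r ^ (h : ℤ) * (r ^ (-(h : ℤ)) * (X * X) * r ^ (h : ℤ)) * r ^ (-(h : ℤ)) := by
      group
    rw [h3, this]
    group
  have h3 : orderOf g ∣ 2 * (2 * h + 1) := by
    apply orderOf_dvd_of_pow_eq_one
    rw [two_mul, pow_add]
    exact h2
  have hco : Nat.Coprime (orderOf g) 2 := Nat.coprime_two_right.2 hodd
  have h4 : orderOf g ∣ 2 * h + 1 := hco.dvd_of_dvd_mul_left h3
  have h5 : g ^ (2 * h + 1) = 1 := orderOf_dvd_iff_pow_eq_one.1 h4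
  rw [h5, mul_one]
  group

end KD

/-- If `z` and `p` have the same odd partners, `p` centralises `s`. -/
theorem no_even {p s z u : G} (hD : IsRootInvolutionSet D) (hp : p ∈ D) (hs : s ∈ D) (hz : z ∈ D)
    (hu : u ∈ D) (hzs : z * s = s * z) (hzsD : z * s ∈ D) (hpsp : p * s * p = z * s)
    (hodd : Odd (orderOf (z * u))) (hzu : z ≠ u) (h4 : (s * u) ^ 4 = 1)
    (hA : oddPartners D z = oddPartners D p) : p * s = s * p := by
  obtain ⟨h, hh⟩ := hodd
  have hodd' : Odd (orderOf (z * u)) := ⟨h, hh⟩
  have K : KD D z s u h := ⟨hD, hz, hs, hu, hzs, h4, by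
    rw [← hh]; exact pow_orderOf_eq_one _⟩
  have hpp := sq_one hD hp
  have hzz := sq_one hD hz
  have hss := sq_one hD hs
  obtain ⟨-, hg⟩ := core hD hz hs hu hzs hzsD hodd' hzu h4
  have hg' : Odd (orderOf (s * (z * u))) := by
    have e : s * (z * u) = (z * s) * u := by
      rw [hzs]; group
    rw [e]; exact hg
  have hev : ∀ v ∈ D, v * (z * v * z) = (z * v * z) * v → v * (p * v * p) = (p * v * p) * v := by
    intro v hv hvc
    by_cases hvp : v = p
    · rw [hvp, hpp, one_mul]
    have hnot : ¬ Odd (orderOf (p * v)) := by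
      intro ho
      have hmem : v ∈ oddPartners D p := ⟨hv, hvp, ho⟩
      rw [← hA] at hmem
      have h5 : (z * v) ^ 4 = 1 := by
        have hvz : z * v * z ∈ D := conj_self_mem hD hz hv
        calc (z * v) ^ 4 = (z * v * z) * (v * (z * v * z)) * v := by
              have e9 : (z * v) ^ 4 = (z * v) * (z * v) * ((z * v) * (z * v)) := by
                simp only [pow_succ, pow_zero, one_mul, mul_assoc]
              rw [e9]
              calc z * v * (z * v) * (z * v * (z * v)) = z * v * z * v * z * v * z * v := by group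
                _ = _ := by group
          _ = (z * v * z) * ((z * v * z) * v) * v := by rw [hvc]
          _ = ((z * v * z) * (z * v * z)) * (v * v) := by group
          _ = 1 := by rw [sq_one hD hvz, sq_one hD hv, one_mul]
      have h6 := eq_one_of_odd_pow4 hmem.2.2 h5
      apply hmem.2.1
      have h7 : z = v⁻¹ := eq_inv_of_mul_eq_one_left h6
      rw [h7, inv_eq hD hv]
    exact comm_of_pow4 hD hp hv (pow4 hD hp hv hnot)
  have hc : ∀ k : ℤ, p * (bk (z * u) s (-k) * bk (z * u) s k) = (bk (z * u) s (-k) * bk (z * u) s k) * p := by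
    intro k
    have hbz := K.bk_z k
    by_cases hb : bk (z * u) s k = s
    · have e : bk (z * u) s (-k) = s := by
        rw [← hbz, hb, K.zsz]
      rw [e, hb, hss, one_mul, mul_one]
    · set a := ak (z * u) z (k * (h + 1)) with ha
      have hs1 : a * s * a = bk (z * u) s k := K.ak_swap k
      have haD : a ∈ D := K.ak_mem _
      have hcs := K.comm_s k
      have h1 : s * (a * s * a) ∈ D := by
        apply swap_mem hD haD hs
        · rw [hs1]; exact hb
        · rw [hs1]; exact hcs
      rw [hs1] at h1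
      set b := bk (z * u) s k with hbdef
      set b' := bk (z * u) s (-k) with hb'def
      have hbb' : b * b' = b' * b := K.comm_all _ _
      have hcs' : s * b' = b' * s := K.comm_s _
      have hzq : z * (s * b) * z = s * b' := by
        have e1 : z * (s * b) * z = (z * s * z) * (z * b * z) := by
          calc z * (s * b) * z = z * s * (z * z) * b * z := by rw [hzz]; group
            _ = _ := by group
        rw [e1, K.zsz, hbz]
      have hqc : (s * b) * (z * (s * b) * z) = (z * (s * b) * z) * (s * b) := by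
        rw [hzq]
        calc s * b * (s * b') = s * (b * s) * b' := by group
          _ = s * (s * b) * b' := by rw [hcs]
          _ = s * s * (b * b') := by group
          _ = s * s * (b' * b) := by rw [hbb']
          _ = s * (s * b') * b := by group
          _ = s * (b' * s) * b := by rw [hcs']
          _ = _ := by group
      have hq := hev _ h1 hqc
      have hss' : s * (s * b) = b := by rw [← mul_assoc, hss, one_mul]
      have hB := hev b (K.bk_mem k) (by
        rw [hbz]; exact hbb')
      have hp1 := polar hpp hss hzz (sq_one hD h1) hpsp hzs (by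
          calc s * (s * b) = s * (s * b) := rfl
            _ = s * (b * s) := by rw [hcs]
            _ = _ := by group) hq (by rw [hss']; exact hB)
      rw [hzq] at hp1
      have e : s * b * (s * b') = b' * b := by
        calc s * b * (s * b') = s * (b * s) * b' := by group
          _ = s * (s * b) * b' := by rw [hcs]
          _ = s * s * (b * b') := by group
          _ = _ := by rw [hss, one_mul, hbb']
      rw [e] at hp1
      exact hp1
  have hD' : ∀ t : ℕ, p * (jt (z * u) s t * s) = (jt (z * u) s t * s) * p := by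
    intro t
    induction t with
    | zero =>
      rw [jt_zero, hss, mul_one, one_mul]
    | succ t ih =>
      rw [jt_succ]
      have h1 := K.jt_comm t (-((t : ℤ) + 1))
      have h2 := K.comm_s (-((t : ℤ) + 1))
      have h3 := K.comm_s ((t : ℤ) + 1)
      have h5 := hc ((t : ℤ) + 1)
      generalize bk (z * u) s (-((t : ℤ) + 1)) = A at *
      generalize bk (z * u) s ((t : ℤ) + 1) = B at *
      generalize jt (z * u) s t = J at *
      have e : A * J * B * s = (J * s) * (A * B) := by
        calc A * J * B * s = (A * J) * (B * s) := by group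
          _ = (J * A) * (s * B) := by rw [h1, h3]
          _ = J * (A * s) * B := by group
          _ = J * (s * A) * B := by rw [h2]
          _ = _ := by group
      rw [e]
      calc p * (J * s * (A * B)) = (p * (J * s)) * (A * B) := by group
        _ = ((J * s) * p) * (A * B) := by rw [ih]
        _ = (J * s) * (p * (A * B)) := by group
        _ = (J * s) * ((A * B) * p) := by rw [h5]
        _ = _ := by group
  have := hD' h
  rw [K.jt_h hg', one_mul] at this
  exact this

/-- The central point of a dihedral pair with twin conjugates has fewer odd partners. -/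
theorem odd_center_subset (hD : IsRootInvolutionSet D) {p s : G} (hp : p ∈ D) (hs : s ∈ D)
    (h4 : orderOf (p * s) = 4) (hA : oddPartners D (s * p * s) = oddPartners D p) :
    oddPartners D ((p * s) ^ 2) ⊆ oddPartners D p := by
  have hpp := sq_one hD hp
  have hss := sq_one hD hs
  have hz : (p * s) ^ 2 ∈ D := by
    rcases hD.pair p hp s hs with h | h | h
    · exfalso
      have h2 : (p * s) ^ 2 = 1 := by
        calc (p * s) ^ 2 = p * (s * p) * s := by rw [pow_two]; group
          _ = p * (p * s) * s := by rw [h]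
          _ = (p * p) * (s * s) := by group
          _ = 1 := by rw [hpp, hss, one_mul]
      have h3 := orderOf_dvd_of_pow_eq_one h2
      rw [h4] at h3
      exact absurd h3 (by decide)
    · rw [h4] at h; exact absurd h (by decide)
    · exact h.2
  have hp' : s * p * s ∈ D := conj_self_mem hD hs hp
  have hps4 : (s * p) ^ 4 = 1 := by
    have h1 : (p * s)⁻¹ = s * p := inv_mul hD hp hs
    rw [← h1, inv_pow, ← h4, pow_orderOf_eq_one, inv_one]
  have hcomm := comm_of_pow4 hD hs hp hps4
  have hze : (p * s) ^ 2 = p * (s * p * s) := by rw [pow_two]; group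
  have hzc : (p * s) ^ 2 * p = p * (p * s) ^ 2 := by
    rw [hze, mul_assoc p, hcomm.symm]
  have hzp : (p * s) ^ 2 * p = s * p * s := by
    rw [hze, mul_assoc p, ← hcomm, ← mul_assoc, hpp, one_mul]
  intro f hf
  by_contra hfp
  have hne : f ≠ p := by
    rintro rfl
    exact not_comm_of_odd hD hz hf.1 hf.2.2 hf.2.1.symm hzc
  have hnot : ¬ Odd (orderOf (p * f)) := fun ho => hfp ⟨hf.1, hne, ho⟩
  have h5 := pow4 hD hp hf.1 hnot
  obtain ⟨h6, h7⟩ := core hD hz hp hf.1 hzc (by rw [hzp]; exact hp') hf.2.2 hf.2.1.symm h5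
  rw [hzp] at h6 h7
  apply hfp
  rw [← hA]
  exact ⟨hf.1, h6.symm, h7⟩

/-- Conjugating by a member fixes its odd partners. -/
theorem odd_conj_self (hD : IsRootInvolutionSet D) {t : G} (ht : t ∈ D) (e : G)
    (h : oddPartners D e = oddPartners D t) : oddPartners D (t * e * t) = oddPartners D t := by
  have h1 := odd_image hD e t
  have h2 := odd_image hD t t
  rw [inv_eq hD ht] at h1 h2
  rw [h1, h, ← h2, mul_assoc, sq_one hD ht, mul_one]

section Twins

variable [Finite G]

/-- Members with the same odd partners commute. -/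
theorem twins_comm (hD : IsRootInvolutionSet D) (hc : IsConnectedSet (OddAdj D) D) {p s : G}
    (hp : p ∈ D) (hs : s ∈ D) (hps : oddPartners D p = oddPartners D s) : p * s = s * p := by
  classical
  haveI hf2 : Fact (Nat.Prime 2) := ⟨Nat.prime_two⟩
  set T : Set G := {t | t ∈ D ∧ oddPartners D t = oddPartners D p} with hT
  have hTD : ∀ t ∈ T, t ∈ D := fun t ht => ht.1
  have ha : ∀ t₁ ∈ T, ∀ t₂ ∈ T, t₂ = t₁ ∨ ¬ Odd (orderOf (t₁ * t₂)) := by
    intro t₁ h₁ t₂ h₂
    by_cases he : t₂ = t₁
    · exact Or.inl he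
    right
    intro ho
    have hm : t₂ ∈ oddPartners D t₁ := ⟨h₂.1, he, ho⟩
    rw [h₁.2, ← h₂.2] at hm
    exact hm.2.1 rfl
  have hb : ∀ t₁ ∈ T, ∀ t₂ ∈ T, t₂ * t₁ * t₂ ∈ T := by
    intro t₁ h₁ t₂ h₂
    refine ⟨conj_self_mem hD h₂.1 h₁.1, ?_⟩
    rw [odd_conj_self hD h₂.1 t₁ (h₁.2.trans h₂.2.symm), h₂.2]
  have hcm : ∀ t₁ ∈ T, ∀ t₂ ∈ T, t₁ * t₂ ≠ t₂ * t₁ → (t₁ * t₂) ^ 2 ∈ T := by
    intro t₁ h₁ t₂ h₂ hne
    have hnodd : ¬ Odd (orderOf (t₁ * t₂)) := by
      rcases ha t₁ h₁ t₂ h₂ with h | h
      · exfalso; apply hne; rw [h]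
      · exact h
    have h4 : orderOf (t₁ * t₂) = 4 ∧ (t₁ * t₂) ^ 2 ∈ D := by
      rcases hD.pair t₁ h₁.1 t₂ h₂.1 with h | h | h
      · exact absurd h hne
      · exact absurd h hnodd
      · exact h
    have hA : oddPartners D (t₂ * t₁ * t₂) = oddPartners D t₁ := by
      rw [odd_conj_self hD h₂.1 t₁ (h₁.2.trans h₂.2.symm), h₂.2, h₁.2]
    have hsub := odd_center_subset hD h₁.1 h₂.1 h4.1 hA
    refine ⟨h4.2, ?_⟩
    rw [odd_eq_of_subset hD hc h4.2 h₁.1 hsub, h₁.2]
  have hd : ∀ g ∈ Subgroup.closure T, ∀ t ∈ T, g * t * g⁻¹ ∈ T := by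
    intro g hg
    induction hg using Subgroup.closure_induction with
    | mem x hx =>
      intro t ht
      rw [inv_eq hD hx.1]
      exact hb t ht x hx
    | one => intro t ht; simpa using ht
    | mul x y _ _ ihx ihy =>
      intro t ht
      have := ihx _ (ihy t ht)
      have e : x * (y * t * y⁻¹) * x⁻¹ = x * y * t * (x * y)⁻¹ := by group
      rwa [e] at this
    | inv x _ ihx =>
      intro t ht
      by_contra hcon
      -- `x` permutes the finite set `T`
      have hinj : Function.Injective (fun t : T => (⟨x * t * x⁻¹, ihx t t.2⟩ : T)) := by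
        intro a b hab
        have := congrArg Subtype.val hab
        simp only at this
        apply Subtype.ext
        simpa using this
      haveI : Finite T := Subtype.finite
      have hsurj := Finite.surjective_of_injective hinj
      obtain ⟨a, ha'⟩ := hsurj ⟨t, ht⟩
      have := congrArg Subtype.val ha'
      simp only at this
      apply hcon
      rw [← this]
      have e : x⁻¹ * (x * a * x⁻¹) * x⁻¹⁻¹ = a := by group
      rw [e]
      exact a.2
  set Q := Subgroup.closure T with hQ
  have hmemC : ∀ t : Q, (t : G) ∈ T → t ∈ pCore 2 Q := by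
    intro t ht
    by_contra hcon
    have htD := ht.1
    have hO : ∀ N : Subgroup Q, N.Normal → IsPGroup 2 N → t ∉ N := fun N hN hP htN =>
      hcon (Cfsg.Agent.Lib.Core.le_pCore hN hP htN)
    have hord : orderOf t = 2 := by
      rw [← Subgroup.orderOf_coe]
      exact hD.orderOf_eq _ htD
    obtain ⟨h, hh1, hodd, hinv⟩ := Cfsg.Agent.S0200.result t hord hO
    have hinv' : (t : G) * (h : G) * (t : G)⁻¹ = (h : G)⁻¹ := by
      have := congrArg Subtype.val hinv
      simpa using this
    have hodd' : Odd (orderOf (h : G)) := by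
      rwa [Subgroup.orderOf_coe]
    have ht' : (h : G) * t * (h : G)⁻¹ ∈ T := hd _ h.2 _ ht
    have hti := inv_eq hD htD
    rw [hti] at hinv'
    have e : (t : G) * ((h : G) * t * (h : G)⁻¹) = (h : G)⁻¹ * (h : G)⁻¹ := by
      calc (t : G) * ((h : G) * t * (h : G)⁻¹) = ((t : G) * h * t) * (h : G)⁻¹ := by group
        _ = _ := by rw [hinv']
    have hh1' : (h : G) ≠ 1 := by
      intro e1
      exact hh1 (Subtype.ext e1)
    have hne2 : (h : G)⁻¹ * (h : G)⁻¹ ≠ 1 := by
      intro e1
      have h2 : ((h : G)⁻¹) ^ 2 = 1 := by rw [pow_two]; exact e1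
      have h3 : orderOf (h : G)⁻¹ ∣ 2 := orderOf_dvd_of_pow_eq_one h2
      rw [orderOf_inv] at h3
      have h4 : orderOf (h : G) = 1 := by
        rcases (Nat.dvd_prime Nat.prime_two).1 h3 with h5 | h5
        · exact h5
        · rw [h5] at hodd'
          exact absurd hodd' (by decide)
      exact hh1' (orderOf_eq_one_iff.1 h4)
    rcases ha t ht _ ht' with h5 | h5
    · apply hne2
      rw [← e, h5]
      exact sq_one hD htD
    · apply h5
      rw [e]
      have h2 : orderOf ((h : G)⁻¹ * (h : G)⁻¹) ∣ orderOf (h : G) := by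
        apply orderOf_dvd_of_pow_eq_one
        rw [← pow_two, ← pow_mul, mul_comm, pow_mul, inv_pow, pow_orderOf_eq_one]
        simp
      exact Odd.of_dvd_nat hodd' h2
  have htop : pCore 2 Q = ⊤ := by
    rw [eq_top_iff, ← Subgroup.closure_closure_coe_preimage (k := T), Subgroup.closure_le]
    intro t ht
    exact hmemC t ht
  have hPQ : IsPGroup 2 Q := by
    intro x
    have hx : x ∈ pCore 2 Q := by rw [htop]; trivial
    obtain ⟨k, hk⟩ := Cfsg.Agent.Lib.Core.pCore_isPGroup 2 Q ⟨x, hx⟩
    exact ⟨k, congrArg Subtype.val hk⟩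
  haveI : Group.IsNilpotent Q := hPQ.isNilpotent
  obtain ⟨n, hn⟩ := Group.IsNilpotent.nilpotent' (G := Q)
  have hpT : p ∈ T := ⟨hp, rfl⟩
  have hex : ∃ i, ∃ t : Q, (t : G) ∈ T ∧ t ∈ Subgroup.upperCentralSeries Q i :=
    ⟨n, ⟨p, Subgroup.subset_closure hpT⟩, hpT, by rw [hn]; trivial⟩
  obtain ⟨t₀, ht₀T, ht₀⟩ := Nat.find_spec hex
  have hcentral : ∀ y ∈ T, (t₀ : G) * y = y * t₀ := by
    intro y hy
    by_contra hne
    have hmin := Nat.find_min hex (m := Nat.find hex - 1)
    rcases hi : Nat.find hex with _ | j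
    · rw [hi] at ht₀
      have h1 : t₀ = 1 := by simpa using ht₀
      apply ne_one hD ht₀T.1
      rw [h1]; rfl
    · rw [hi] at ht₀ hmin
      rw [Subgroup.mem_upperCentralSeries_succ_iff] at ht₀
      have h1 := ht₀ ⟨y, Subgroup.subset_closure hy⟩
      apply hmin (by omega)
      refine ⟨_, ?_, h1⟩
      have h2 := hcm _ ht₀T _ hy hne
      have e : (t₀ : G) * y * (t₀ : G)⁻¹ * y⁻¹ = ((t₀ : G) * y) ^ 2 := by
        rw [inv_eq hD ht₀T.1, inv_eq hD hy.1, pow_two]
        group
      rw [commutatorElement_def]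
      simp only [Subgroup.coe_mul, Subgroup.coe_inv]
      rw [e]
      exact h2
  -- by transitivity
  have hall : ∀ b ∈ T, ∀ y ∈ T, b * y = y * b := by
    intro b hb' y hy
    obtain ⟨g, rfl⟩ := conj_of_connected hD hc ht₀T.1 hb'.1
    have hyT : g⁻¹ * y * g ∈ T := by
      refine ⟨?_, ?_⟩
      · have := hD.conj_mem y hy.1 g⁻¹
        simpa using this
      · have h1 := odd_image hD y g⁻¹
        have h2 := odd_image hD (g * t₀ * g⁻¹) g⁻¹
        have e1 : g⁻¹ * y * g⁻¹⁻¹ = g⁻¹ * y * g := by group
        have e2 : g⁻¹ * (g * t₀ * g⁻¹) * g⁻¹⁻¹ = t₀ := by group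
        rw [e1] at h1
        rw [e2] at h2
        rw [h1, hy.2, ← hb'.2, ← h2, ht₀T.2, hb'.2]
    have h1 := hcentral _ hyT
    calc g * t₀ * g⁻¹ * y = g * ((t₀ : G) * (g⁻¹ * y * g)) * g⁻¹ := by group
      _ = g * ((g⁻¹ * y * g) * t₀) * g⁻¹ := by rw [h1]
      _ = _ := by group
  exact hall p hpT s ⟨hs, hps.symm⟩

/-- A member of order-four product never moves a member to a twin. -/
theorem no_twin_move (hD : IsRootInvolutionSet D) (hc : IsConnectedSet (OddAdj D) D) {p s : G}
    (hp : p ∈ D) (hs : s ∈ D) (h4 : orderOf (p * s) = 4)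
    (hA : oddPartners D (s * p * s) = oddPartners D p) : False := by
  have hpp := sq_one hD hp
  have hss := sq_one hD hs
  have hnc : p * s ≠ s * p := by
    intro h
    have h2 : (p * s) ^ 2 = 1 := by
      calc (p * s) ^ 2 = p * (s * p) * s := by rw [pow_two]; group
        _ = p * (p * s) * s := by rw [h]
        _ = (p * p) * (s * s) := by group
        _ = 1 := by rw [hpp, hss, one_mul]
    have h3 := orderOf_dvd_of_pow_eq_one h2
    rw [h4] at h3
    exact absurd h3 (by decide)
  have hz : (p * s) ^ 2 ∈ D := by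
    rcases hD.pair p hp s hs with h | h | h
    · exact absurd h hnc
    · rw [h4] at h; exact absurd h (by decide)
    · exact h.2
  have hA1 := odd_eq_of_subset hD hc hz hp (odd_center_subset hD hp hs h4 hA)
  -- `z s = p s p`
  have hzs' : (p * s) ^ 2 * s = p * s * p := by
    rw [pow_two]
    calc p * s * (p * s) * s = p * s * p * (s * s) := by group
      _ = _ := by rw [hss, mul_one]
  have hps4 : (p * s) ^ 4 = 1 := by rw [← h4]; exact pow_orderOf_eq_one _
  have hzc : (p * s) ^ 2 * s = s * (p * s) ^ 2 := by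
    have h1 := comm_of_pow4 hD hp hs hps4
    rw [hzs', pow_two]
    calc p * s * p = (p * s * p) * (s * s) := by rw [hss, mul_one]
      _ = ((p * s * p) * s) * s := by group
      _ = (s * (p * s * p)) * s := by rw [h1]
      _ = _ := by group
  have hzsD : (p * s) ^ 2 * s ∈ D := by
    rw [hzs']; exact conj_self_mem hD hp hs
  have hsub : oddPartners D ((p * s) ^ 2) ⊆ oddPartners D s := by
    intro u hu
    by_contra hus
    have hne : u ≠ s := by
      rintro rfl
      exact not_comm_of_odd hD hz hu.1 hu.2.2 hu.2.1.symm hzc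
    have hnot : ¬ Odd (orderOf (s * u)) := fun ho => hus ⟨hu.1, hne, ho⟩
    have h5 := pow4 hD hs hu.1 hnot
    exact hnc (no_even hD hp hs hz hu.1 hzc hzsD hzs'.symm hu.2.2 hu.2.1.symm h5 hA1)
  have hA2 := odd_eq_of_subset hD hc hz hs hsub
  exact hnc (twins_comm hD hc hp hs (hA1.symm.trans hA2))

/-- Twins have the same commuting members. -/
theorem twin_commuting (hD : IsRootInvolutionSet D) (hc : IsConnectedSet (OddAdj D) D) {d e : G}
    (hd : d ∈ D) (he : e ∈ D) (h : oddPartners D d = oddPartners D e) :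
    commutingMembers D d ⊆ commutingMembers D e := by
  rintro t ⟨ht, htd⟩
  refine ⟨ht, ?_⟩
  by_contra hne
  have hnd : t ∉ oddPartners D d := by
    intro hm
    exact not_comm_of_odd hD hd ht hm.2.2 hm.2.1.symm htd.symm
  rw [h] at hnd
  have hte : t ≠ e := by
    rintro rfl
    exact hne rfl
  have hnot : ¬ Odd (orderOf (e * t)) := fun ho => hnd ⟨ht, hte, ho⟩
  rcases hD.pair e he t ht with h1 | h1 | h1
  · exact hne h1.symm
  · exact hnot h1
  · refine no_twin_move hD hc he ht h1.1 ?_
    have hi := inv_eq hD ht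
    have h2 : t * d * t = d := by
      rw [htd, mul_assoc, sq_one hD ht, mul_one]
    have h3 := odd_image hD e t
    have h4 := odd_image hD d t
    rw [hi] at h3 h4
    rw [h3, ← h, ← h4, h2, h]

end Twins

end Cfsg.Agent.Lib.RootInv
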